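import Cfsg.Agent.H4.Fischer3

/-! Fischer's theory: recognising the symmetric group of degree five. -/

set_option autoImplicit false

namespace CfsgH4

open Subgroup

variable {G : Type*} [Group G]

theorem exists_hom_of_table {K ι J : Type*} [Group K] [Finite J] (s : ι → K) (t : ι → G)
    (hs : closure (Set.range s) = ⊤) (p : J → K) (q : J → G) (hp : Function.Injective p)
    (hq : ∀ g ∈ closure (Set.range t), (∀ j, g * q j * g⁻¹ = q j) → g = 1) (τ : ι → J → J)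
    (h1 : ∀ i j, s i * p j * (s i)⁻¹ = p (τ i j)) (h2 : ∀ i j, t i * q j * (t i)⁻¹ = q (τ i j)) :
    ∃ f : K →* G, ∀ i, f (s i) = t i := by
  let Γ : Subgroup (K × G) :=
    { carrier := {x | x.2 ∈ closure (Set.range t) ∧ ∃ π : Equiv.Perm J, ∀ j,
        x.1 * p j * x.1⁻¹ = p (π j) ∧ x.2 * q j * x.2⁻¹ = q (π j)}
      one_mem' := ⟨one_mem _, 1, by simp⟩
      mul_mem' := fun {a b} ⟨ha, π, hπ⟩ ⟨hb, ρ, hρ⟩ => ⟨mul_mem ha hb, π * ρ, fun j => by
        rw [Equiv.Perm.mul_apply, ← (hπ _).1, ← (hπ _).2, ← (hρ _).1, ← (hρ _).2]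
        simp [mul_assoc]⟩
      inv_mem' := fun {a} ⟨ha, π, hπ⟩ => ⟨inv_mem ha, π⁻¹, fun j => by
        have := hπ (π⁻¹ j)
        rw [show π (π⁻¹ j) = j from π.apply_symm_apply j] at this
        rw [← this.1, ← this.2]
        simp [mul_assoc]⟩ }
  have hm : ∀ i, (s i, t i) ∈ Γ := fun i => by
    have : Function.Injective (τ i) := fun j k h => hp (by
      have := h1 i j
      rw [h, ← h1 i k] at this
      simpa using this)
    exact ⟨subset_closure ⟨i, rfl⟩, Equiv.ofBijective _ (Finite.injective_iff_bijective.1 this),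
      fun j => ⟨h1 i j, h2 i j⟩⟩
  let φ : Γ →* K := (MonoidHom.fst K G).comp Γ.subtype
  have hφ : Function.Bijective φ := by
    constructor
    · rw [injective_iff_map_eq_one]
      rintro ⟨⟨k, g⟩, hg, π, hπ⟩ (rfl : k = 1)
      refine Subtype.ext (Prod.ext rfl (hq g hg fun j => ?_))
      have h3 : j = π j := hp (by simpa using (hπ j).1)
      rw [(hπ j).2, ← h3]
    · rw [← MonoidHom.range_eq_top, eq_top_iff, ← hs, closure_le]
      rintro _ ⟨i, rfl⟩
      exact ⟨⟨_, hm i⟩, rfl⟩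
  refine ⟨((MonoidHom.snd K G).comp Γ.subtype).comp (MulEquiv.ofBijective φ hφ).symm.toMonoidHom,
    fun i => ?_⟩
  have : (MulEquiv.ofBijective φ hφ).symm (s i) = ⟨_, hm i⟩ :=
    (MulEquiv.symm_apply_eq _).2 rfl
  simp [this]

theorem closure_range_swap (n : ℕ) :
    closure (Set.range fun i : Fin n => Equiv.swap i.castSucc i.succ) = ⊤ := by
  rw [eq_top_iff]
  intro x _
  exact le_closure_toSubmonoid _ (by rw [Equiv.Perm.mclosure_swap_castSucc_succ]; trivial)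

theorem iso_S5 {a b c d : G} (sa : a * a = 1) (sb : b * b = 1) (sc : c * c = 1) (sd : d * d = 1)
    (r0 : (a * b) ^ 3 = 1) (r1 : (a * c) ^ 2 = 1) (r2 : (a * d) ^ 2 = 1) (r3 : (b * c) ^ 3 = 1)
    (r4 : (b * d) ^ 2 = 1) (r5 : (c * d) ^ 3 = 1) (hab : a ≠ b)
    (hgen : ∀ H : Subgroup G, a ∈ H → b ∈ H → c ∈ H → d ∈ H → H = ⊤) (hZ : center G = ⊥) :
    Nonempty (G ≃* Equiv.Perm (Fin 5)) := by
  let L := [a, b, c, d]
  let W : Fin 10 → List ℕ := ![[0], [1], [2], [3], [1, 0, 1], [2, 1, 2], [3, 2, 3], [2, 1, 0, 1, 2],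
    [3, 2, 1, 2, 3], [3, 2, 1, 0, 1, 2, 3]]
  let τ : Fin 4 → Fin 10 → Fin 10 := ![![0, 4, 2, 3, 1, 7, 6, 5, 9, 8],
    ![4, 1, 5, 3, 0, 2, 8, 7, 6, 9], ![0, 5, 2, 6, 7, 1, 3, 4, 8, 9], ![0, 1, 6, 3, 4, 8, 2, 9, 5, 7]]
  let C : Fin 4 → Fin 10 → List (ℕ × ℕ × ℕ × Bool) := ![![[],
      [(0, 0, 1, false)],
      [(0, 1, 1, false)],
      [(0, 2, 1, false)],
      [(0, 0, 1, false)],
      [(3, 1, 0, false), (2, 0, 0, false), (0, 1, 1, false)],
      [(3, 2, 0, false), (2, 1, 0, false), (0, 2, 1, false)],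
      [(5, 1, 0, false), (2, 0, 0, false), (0, 1, 1, false)],
      [(5, 2, 0, false), (4, 1, 0, false), (3, 0, 0, false), (2, 1, 0, false), (0, 2, 1, false)],
      [(7, 2, 0, false), (6, 1, 0, false), (3, 0, 0, false), (2, 1, 0, false), (0, 2, 1, false)]],
    ![[],
      [],
      [(0, 3, 1, false)],
      [(0, 4, 1, false)],
      [],
      [(0, 3, 1, false)],
      [(3, 4, 0, false), (2, 3, 0, false), (0, 4, 1, false)],
      [(4, 3, 1, false), (3, 1, 1, false), (0, 3, 1, false)],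
      [(5, 4, 0, false), (2, 3, 0, false), (0, 4, 1, false)],
      [(7, 4, 0, false), (5, 3, 1, false), (4, 1, 1, false), (2, 3, 0, false), (0, 4, 1, false)]],
    ![[(0, 1, 0, false)],
      [],
      [],
      [(0, 5, 1, false)],
      [],
      [],
      [(0, 5, 1, false)],
      [],
      [(4, 5, 1, false), (3, 4, 1, false), (0, 5, 1, false)],
      [(6, 5, 1, false), (5, 4, 1, false), (4, 2, 1, false), (3, 4, 1, false), (0, 5, 1, false)]],
    ![[(0, 2, 0, false)],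
      [(0, 4, 0, false)],
      [],
      [],
      [(3, 4, 1, false), (2, 2, 1, false), (0, 4, 0, false)],
      [],
      [],
      [],
      [],
      []]]
  let R : List (List ℕ × ℕ) :=
    [([0, 1], 3), ([0, 2], 2), ([0, 3], 2), ([1, 2], 3), ([1, 3], 2), ([2, 3], 3)]
  have hL : L.Forall fun x => x * x = 1 := ⟨sa, sb, sc, sd⟩
  have hR : R.Forall fun r => wev L r.1 ^ r.2 = 1 := ⟨r0, r1, r2, r3, r4, r5⟩
  have hC : ∀ i j, wchk R (C i j) ((i.1 :: (W j ++ [i.1])) ++ (W (τ i j)).reverse) = true := by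
    decide
  have ht : closure (Set.range fun i : Fin 4 => L.getD i 1) = ⊤ :=
    hgen _ (subset_closure ⟨0, rfl⟩) (subset_closure ⟨1, rfl⟩) (subset_closure ⟨2, rfl⟩)
      (subset_closure ⟨3, rfl⟩)
  obtain ⟨f, hf⟩ := exists_hom_of_table (fun i : Fin 4 => Equiv.swap i.castSucc i.succ)
    (fun i : Fin 4 => L.getD i 1) (closure_range_swap 4)
    (![Equiv.swap 0 1, Equiv.swap 1 2, Equiv.swap 2 3, Equiv.swap 3 4, Equiv.swap 0 2,
      Equiv.swap 1 3, Equiv.swap 2 4, Equiv.swap 0 3, Equiv.swap 1 4, Equiv.swap 0 4])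
    (fun j => wev L (W j)) (by decide) (fun g _ h => by
      rw [← mem_bot, ← hZ, mem_center_iff]
      intro k
      exact mem_centralizer_singleton_iff.1 (hgen (centralizer {g})
        (mem_centralizer_singleton_iff.2 (commute_of_conj_eq (h 0)).symm)
        (mem_centralizer_singleton_iff.2 (commute_of_conj_eq (h 1)).symm)
        (mem_centralizer_singleton_iff.2 (commute_of_conj_eq (h 2)).symm)
        (mem_centralizer_singleton_iff.2 (commute_of_conj_eq (h 3)).symm) ▸ mem_top k)) τ (by decide) (fun i j => by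
      have := weq L hL R hR _ _ _ (hC i j)
      rw [wev_cons, wev_append, wev_cons, ← mul_assoc] at this
      rw [← this, inv_eq_of_mul_eq_one_right (getD_sq hL i)]
      simp [wev])
  refine ⟨(MulEquiv.ofBijective f ⟨?_, ?_⟩).symm⟩
  · rw [← MonoidHom.ker_eq_bot_iff]
    by_contra h
    have h1 := Equiv.Perm.alternatingGroup_le_of_normal (by simp) ((nontrivial_iff_ne_bot _).2 h)
      (Equiv.Perm.mem_alternatingGroup.2 (show Equiv.Perm.sign (Equiv.swap (0 : Fin 4).castSucc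
        (0 : Fin 4).succ * Equiv.swap (1 : Fin 4).castSucc (1 : Fin 4).succ) = 1 by decide))
    rw [MonoidHom.mem_ker, map_mul, hf, hf] at h1
    exact hab ((eq_inv_of_mul_eq_one_left h1).trans (inv_eq_of_mul_eq_one_right sb))
  · rw [← MonoidHom.range_eq_top, eq_top_iff, ← ht, closure_le]
    rintro _ ⟨i, rfl⟩
    exact ⟨_, hf i⟩

theorem ncard_orbit_dvd [Finite G] (P : Subgroup G) (y : G) :
    {z | ∃ g ∈ P, g * y * g⁻¹ = z}.ncard ∣ Nat.card P := by
  letI : MulAction P G := MulAction.compHom G (MulAut.conj.comp P.subtype)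
  have : {z | ∃ g ∈ P, g * y * g⁻¹ = z} = MulAction.orbit P y := Set.ext fun z =>
    ⟨fun ⟨g, hg, h⟩ => ⟨⟨g, hg⟩, h⟩, fun ⟨g, h⟩ => ⟨g, g.2, h⟩⟩
  rw [this, ← MulAction.index_stabilizer]
  exact index_dvd_card _

theorem ncard_eq_of_conj (g : G) {S T : Set G} (h : ∀ x, x ∈ S ↔ g * x * g⁻¹ ∈ T) :
    S.ncard = T.ncard := by
  rw [← Set.ncard_image_of_injective S (MulAut.conj g).injective]
  congr 1
  ext y
  refine ⟨?_, fun hy => ⟨g⁻¹ * y * g, (h _).2 (by simpa [mul_assoc] using hy), by simp [mul_assoc]⟩⟩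
  rintro ⟨x, hx, rfl⟩
  exact (h x).1 hx

theorem moufang_mem [Finite G] {D : Set G} (hD : Cfsg.IsThreeTranspositionClass D)
    (h : ∀ a ∈ D, ∀ b ∈ D, a ≠ b → ¬ Commute a b) {a b : G} (ha : a ∈ D) (hb : b ∈ D) :
    a * b ∈ Cfsg.pCore 3 G := by
  have : Fact (Nat.Prime 3) := ⟨Nat.prime_three⟩
  have h1 := Cfsg.Agent.S1618.result 3 Nat.prime_three (by decide) hD.1.1 hD.2.1 hD.2.2
    fun x hx y hy hne => ⟨1, tt_orderOf hD.1 hx hy (h x hx y hy hne)⟩
  by_cases hab : a = b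
  · rw [hab, tt_sq hD.1 hb]; exact one_mem _
  obtain ⟨P, hP⟩ := exists_sylow_mem_of_pow (G := Cfsg.fittingSubgroup G) (p := 3) (k := 1)
    (x := ⟨a * b, CfsgL0.le_fitting h1 (class_mul_mem hD ha hb)⟩)
    (Subtype.ext (tt_cube hD.1 ha hb (h a ha b hb hab)))
  rw [← CfsgL0.map_sylow_fitting P]
  exact ⟨_, hP, rfl⟩

theorem class_closure {D : Set G} (hD : Cfsg.IsThreeTranspositionSet D) {E : Set G} (hE : E ⊆ D)
    {y : G} (hy : y ∈ E) (h1 : ∀ a ∈ E, ∀ b ∈ E, a * b * a⁻¹ ∈ E)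
    (h2 : ∀ a ∈ E, ∃ g ∈ closure E, g * y * g⁻¹ = a) :
    Cfsg.IsThreeTranspositionClass ((closure E).subtype ⁻¹' E) := by
  refine ⟨⟨fun d hd => by rw [← orderOf_coe]; exact hD.1 _ (hE hd), fun d hd e he =>
    (hD.2 _ (hE hd) _ (hE he)).imp (fun h => Subtype.ext h) fun h => Subtype.ext h⟩,
    ⟨⟨y, subset_closure hy⟩, hy, Set.ext fun a => ⟨fun ha => ?_, fun ha => ?_⟩⟩,
    closure_closure_coe_preimage⟩
  · obtain ⟨g, hg, h⟩ := h2 a ha
    exact isConj_iff.2 ⟨⟨g, hg⟩, Subtype.ext h⟩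
  · obtain ⟨⟨g, hg⟩, rfl⟩ := isConj_iff.1 ha
    change g * y * g⁻¹ ∈ E
    clear ha
    generalize y = z at hy
    induction hg using closure_induction'' generalizing z with
    | one => simpa
    | mem x hx => exact h1 x hx z hy
    | inv_mem x hx => rw [tt_inv hD (hE hx)]; exact h1 x hx z hy
    | mul a b _ _ ha hb => simpa [mul_assoc] using ha _ (hb z hy)

namespace Fis

variable {D : Set G} (F : Fis D)
include F

theorem exists_w0 {a b c d : G} (ha : a ∈ D) (hb : b ∈ D) (hc : c ∈ D) (hd : d ∈ D)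
    (h1 : ¬ Commute a b) (h2 : Commute a c) (h3 : Commute a d) (h4 : ¬ Commute b c)
    (h5 : Commute b d) (h6 : ¬ Commute c d) :
    ∃ w : G, w * a * w⁻¹ = d ∧ w * d * w⁻¹ = a ∧ w * b * w⁻¹ = c := by
  have sd := F.sq hd; have sb := F.sq hb; have sc := F.sq hc; have sa := F.sq ha
  have r0 := F.cube ha hb h1; have r1 := F.two ha hc h2; have r2 := F.two ha hd h3
  have r3 := F.cube hb hc h4; have r4 := F.two hb hd h5; have r5 := F.cube hc hd h6
  refine ⟨a * b * a * c * b * a * d * c * b * a, mul_inv_eq_iff_eq_mul.2 ?_,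
    mul_inv_eq_iff_eq_mul.2 ?_, mul_inv_eq_iff_eq_mul.2 ?_⟩
  · simpa only [mul_assoc] using (show a * b * a * c * b * a * d * c * b * a * a = d * a * b * a * c * b * a * d * c * b * a from
    weq [a, b, c, d] ⟨sa, sb, sc, sd⟩ [([0, 1], 3), ([0, 2], 2), ([0, 3], 2), ([1, 2], 3), ([1, 3], 2), ([2, 3], 3)]
    ⟨r0, r1, r2, r3, r4, r5⟩
    [0, 1, 0, 2, 1, 0, 3, 2, 1, 0, 0] [3, 0, 1, 0, 2, 1, 0, 3, 2, 1, 0] [(8, 0, 0, false), (7, 1, 0, false), (5, 2, 1, false), (10, 2, 0, false), (8, 1, 1, false), (6, 3, 0, false), (8, 4, 1, false), (4, 4, 1, false), (3, 5, 1, false), (2, 2, 1, false), (1, 4, 1, false), (0, 2, 1, false)] (by decide))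
  · simpa only [mul_assoc] using (show a * b * a * c * b * a * d * c * b * a * d = a * a * b * a * c * b * a * d * c * b * a from
    weq [a, b, c, d] ⟨sa, sb, sc, sd⟩ [([0, 1], 3), ([0, 2], 2), ([0, 3], 2), ([1, 2], 3), ([1, 3], 2), ([2, 3], 3)]
    ⟨r0, r1, r2, r3, r4, r5⟩
    [0, 1, 0, 2, 1, 0, 3, 2, 1, 0, 3] [0, 0, 1, 0, 2, 1, 0, 3, 2, 1, 0] [(9, 2, 1, false), (8, 4, 1, false), (6, 5, 0, false), (5, 1, 1, false), (3, 3, 0, false), (0, 0, 1, false)] (by decide))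
  · simpa only [mul_assoc] using (show a * b * a * c * b * a * d * c * b * a * b = c * a * b * a * c * b * a * d * c * b * a from
    weq [a, b, c, d] ⟨sa, sb, sc, sd⟩ [([0, 1], 3), ([0, 2], 2), ([0, 3], 2), ([1, 2], 3), ([1, 3], 2), ([2, 3], 3)]
    ⟨r0, r1, r2, r3, r4, r5⟩
    [0, 1, 0, 2, 1, 0, 3, 2, 1, 0, 1] [2, 0, 1, 0, 2, 1, 0, 3, 2, 1, 0] [(8, 0, 0, false), (7, 1, 0, false), (5, 2, 1, false), (4, 0, 0, false), (6, 1, 1, false), (2, 1, 1, false), (1, 3, 1, false), (0, 1, 1, false)] (by decide))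

theorem Dd_iff (g d y : G) : y ∈ Dd D d ↔ g * y * g⁻¹ ∈ Dd D (g * d * g⁻¹) :=
  ⟨fun h => ⟨F.conj _ _ h.1, by simpa using h.2.1, h.2.2.conj g⟩, fun h =>
    ⟨by simpa [mul_assoc] using F.conj g⁻¹ _ h.1, by simpa using h.2.1, commute_conj_iff.1 h.2.2⟩⟩

variable [Finite G]

omit F [Finite G] in
theorem center_eq_bot (hsol : ∀ N : Subgroup G, N.Normal → Group.IsSolvable N → N = ⊥) :
    center G = ⊥ := hsol _ inferInstance
  (haveI := CfsgL0.isNilpotent_of_isMulCommutative (H := center G) inferInstance; inferInstance)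

theorem Dd_class {d : G} (hd : d ∈ D) :
    Cfsg.IsThreeTranspositionClass ((closure (Dd D d)).subtype ⁻¹' (Dd D d)) := by
  obtain ⟨y, hy⟩ := F.exc' hd
  exact class_closure F.tt (fun _ h => h.1) (show y ∈ Dd D d from hy)
    (fun a ha b hb => F.conj_Dd ha.2.2.symm hb) fun a ha => F.Dd_conj hd hy ha

theorem no_triangle {x y y' : G} (hy : y ∈ Dd D x) (hy' : y' ∈ Dd D x) (hx : x ∈ D)
    (hn : ¬ Commute y y') (hW : ∀ z ∈ Dd D x, z ≠ y → Commute y z → Commute y' z) :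
    ∀ u ∈ D, ∀ a ∈ Dd D u, ∀ b ∈ Dd D u, a ≠ b → ¬ Commute a b := by
  have hxy : x ∈ Dd D y := ⟨hx, hy.2.1.symm, hy.2.2.symm⟩
  suffices key : ∀ z ∈ Dd D y, z ≠ x → ¬ Commute x z by
    intro u hu a ha b hb hab h
    obtain ⟨g, rfl, rfl⟩ := F.pair_trans hu hy.1 ha hxy
    exact key _ ((F.Dd_iff g u b).1 hb) (by simpa using hab.symm) (h.conj g)
  intro z hz hzx hxz
  let S := {v | v ∈ Dd D y ∧ ¬ Commute y' v}
  have h1 : closure S ≤ centralizer {z} := (closure_le _).2 fun v hv => by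
    have h2 : ¬ Commute v x := fun h2 => hv.2 (hW v ⟨hv.1.1, fun h3 => hv.2 (h3 ▸ hy'.2.2.symm),
      h2.symm⟩ hv.1.2.1 hv.1.2.2)
    obtain ⟨w, w1, w2, w3⟩ := F.exists_w0 hy.1 hy'.1 hv.1.1 hx hn hv.1.2.2 hy.2.2.symm hv.2
      hy'.2.2.symm h2
    obtain ⟨z, rfl⟩ : ∃ z', w * z' * w⁻¹ = z := ⟨w⁻¹ * z * w, by group⟩
    rw [← w2] at hz
    rw [← w1] at hzx hxz
    rw [← w3]
    exact mem_centralizer_singleton_iff.2 ((hW z ((F.Dd_iff w x z).2 hz) (by simpa using hzx)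
      (commute_conj_iff.1 hxz)).conj w)
  have h2 : closure (Dd D y) ≤ normalizer (closure S : Set G) := (closure_le _).2 fun m hm => by
    by_cases h3 : m ∈ S
    · exact le_normalizer (subset_closure h3)
    · refine normalizer_le_normalizer_closure S (mem_normalizer_fintype fun v hv =>
        ⟨F.conj_Dd hm.2.2.symm hv.1, ?_⟩)
      rw [commute_conj_right (by_contra fun h4 => h3 ⟨hm, fun h5 => h4 h5.symm⟩)]
      exact hv.2
  obtain ⟨v, hv⟩ := F.W_triv hy.1 hy'.1 hn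
  have h3 : closure (Dd D y) ≤ centralizer {z} := (closure_le _).2 fun u hu => by
    obtain ⟨g, hg, rfl⟩ := F.Dd_conj hy.1 (a := v) ⟨hv.1, hv.2.1, hv.2.2.1⟩ hu
    exact h1 ((mem_normalizer_iff.1 (h2 hg) v).1 (subset_closure
      ⟨⟨hv.1, hv.2.1, hv.2.2.1⟩, hv.2.2.2⟩))
  obtain ⟨g, hg, h⟩ := F.Dd_conj hy.1 hz hxy
  rw [conj_eq_of_commute (mem_centralizer_singleton_iff.1 (h3 hg))] at h
  exact hzx h

theorem ncard_Dd_of_no_triangle
    (h : ∀ u ∈ D, ∀ a ∈ Dd D u, ∀ b ∈ Dd D u, a ≠ b → ¬ Commute a b) {x : G} (hx : x ∈ D) :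
    (Dd D x).ncard = 3 := by
  classical
  have : Fact (Nat.Prime 3) := ⟨Nat.prime_three⟩
  set H := closure (Dd D x) with hH
  let K : Subgroup G := CfsgL0.pCoreOf 3 H
  have hK : IsPGroup 3 K := CfsgL0.isPGroup_pCoreOf
  have hKH : K ≤ H := CfsgL0.pCoreOf_le
  have hm : ∀ a ∈ Dd D x, ∀ b ∈ Dd D x, a * b ∈ K := fun a ha b hb =>
    ⟨_, moufang_mem (F.Dd_class hx) (fun a ha b hb hab h1 => h x hx a ha b hb
      (fun h2 => hab (Subtype.ext h2)) (congrArg Subtype.val h1))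
      (a := ⟨a, subset_closure ha⟩) (b := ⟨b, subset_closure hb⟩) ha hb, rfl⟩
  have hcj : ∀ a ∈ Dd D x, ∀ b ∈ Dd D x, b * a * a * (b * a)⁻¹ = b ∨
      a * b * a * (a * b)⁻¹ = b := by
    intro a ha b hb
    by_cases hab : a = b
    · right; simp [hab]
    · right
      rw [mul_inv_rev, F.inv ha.1, F.inv hb.1, F.braid ha.1 hb.1 (h x hx a ha b hb hab)]
      rw [show b * a * b * (b * a) = b * a * (b * b) * a by group, F.sq hb.1, mul_one, mul_assoc,
        F.sq ha.1, mul_one]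
  have hpow : ∀ P : Subgroup G, P ≤ K → ∀ S : Set G, ∀ y, (∀ z, z ∈ S ↔ ∃ g ∈ P, g * y * g⁻¹ = z) →
      ∃ n, S.ncard = 3 ^ n := by
    intro P hP S y hS
    obtain ⟨n, hn⟩ := IsPGroup.iff_card.1 (hK.to_le hP)
    have := ncard_orbit_dvd P y
    rw [← show S = _ from Set.ext hS, hn] at this
    obtain ⟨m, -, hm⟩ := (Nat.dvd_prime_pow Nat.prime_three).1 this
    exact ⟨m, hm⟩
  obtain ⟨y, hy⟩ := F.exc' hx
  change y ∈ Dd D x at hy
  obtain ⟨a, ha⟩ := hpow K le_rfl (Dd D x) y fun z => ⟨fun hz => (hcj y hy z hz).elim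
    (fun h => ⟨_, hm z hz y hy, h⟩) fun h => ⟨_, hm y hy z hz, h⟩, by
      rintro ⟨g, hg, rfl⟩
      exact F.conj_Dd (commute_of_mem_Dd (hKH hg)) hy⟩
  obtain ⟨c, hc, hyc, hxc⟩ := F.V_triv hy.1 hx hy.2.1.symm
  obtain ⟨b, hb⟩ := hpow (K ⊓ centralizer {c}) inf_le_left {z | z ∈ Dd D x ∧ Commute c z} y
    fun z => ⟨fun hz => (hcj y hy z hz.1).elim
    (fun h => ⟨_, ⟨hm z hz.1 y hy, mem_centralizer_singleton_iff.2 (hz.2.symm.mul_left hyc)⟩, h⟩)
    fun h => ⟨_, ⟨hm y hy z hz.1, mem_centralizer_singleton_iff.2 (hyc.mul_left hz.2.symm)⟩, h⟩, by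
      rintro ⟨g, hg, rfl⟩
      exact ⟨F.conj_Dd (commute_of_mem_Dd (hKH hg.1)) hy, (commute_conj_right
        (mem_centralizer_singleton_iff.1 hg.2)).2 hyc.symm⟩⟩
  let A := {c | c ∈ D ∧ ¬ Commute x c}
  have hA : A.ncard ∣ 2 * (2 * Nat.card K) := by
    have h1 : A = {z | ∃ g ∈ closure (perp D x), g * c * g⁻¹ = z} := Set.ext fun z =>
      ⟨fun hz => F.HR_all hx hc hz.1 hxc hz.2, fun hz => ⟨F.HR_mem hz hc, by
        rwa [HR.commute_iff hz]⟩⟩
    have h2 : H ≤ zpowers y ⊔ K := (closure_le _).2 fun z hz => by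
      have := mul_mem_sup (mem_zpowers y) (hm y hy z hz)
      rwa [← mul_assoc, F.sq hy.1, one_mul] at this
    have h3 : closure (perp D x) ≤ zpowers x ⊔ H := (closure_le _).2 fun z hz => by
      by_cases h4 : z = x
      · rw [h4]; exact mem_sup_left (mem_zpowers x)
      · exact mem_sup_right (subset_closure ⟨hz.1, h4, hz.2⟩)
    have h4 := CfsgL0.card_sup_dvd_of_le_normalizer (H := zpowers y) (K := K)
      ((zpowers_le.2 (subset_closure hy : y ∈ H)).trans CfsgL0.le_normalizer_pCoreOf)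
    have h5 := CfsgL0.card_sup_dvd_of_le_normalizer (H := zpowers x) (K := H)
      (zpowers_le.2 (mem_normalizer_fintype fun g hg => by
        rwa [conj_eq_of_commute (commute_of_mem_Dd hg).symm]))
    rw [Nat.card_zpowers, F.tt.1 _ hy.1] at h4
    rw [Nat.card_zpowers, F.tt.1 _ hx] at h5
    rw [h1]
    exact (ncard_orbit_dvd _ _).trans ((card_dvd_of_le h3).trans (h5.trans
      (mul_dvd_mul_left 2 ((card_dvd_of_le h2).trans h4))))
  have hcount : A.ncard * 3 ^ b = 3 ^ a * (3 ^ a - 1) := by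
    rw [← ha, Set.ncard_eq_toFinset_card A, Set.ncard_eq_toFinset_card (Dd D x)]
    refine Finset.card_mul_eq_card_mul (fun c e => Commute c e) (fun c' hc' => ?_) fun e he => ?_
    · rw [Set.Finite.mem_toFinset] at hc'
      obtain ⟨g, hg, rfl⟩ := F.HR_all hx hc hc'.1 hxc hc'.2
      rw [← hb, ncard_eq_of_conj g (T := {z | z ∈ Dd D x ∧ Commute (g * c * g⁻¹) z}) fun z => by
        rw [Set.mem_setOf_eq, Set.mem_setOf_eq, commute_conj_iff, F.Dd_iff g,
          conj_eq_of_commute (commute_of_mem_perp hg)], ← Set.ncard_coe_finset]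
      congr 1; ext z; simp
    · rw [Set.Finite.mem_toFinset] at he
      obtain ⟨g, hg⟩ := F.trans x hx e he.1
      rw [← Set.ncard_eq_toFinset_card, ncard_eq_of_conj g (T := Dd D e) fun z => hg ▸ F.Dd_iff g x z,
        ← Set.ncard_diff_singleton_of_mem (show x ∈ Dd D e from ⟨hx, he.2.1.symm, he.2.2.symm⟩),
        ← Set.ncard_coe_finset]
      congr 1; ext z
      simp only [Finset.coe_bipartiteBelow, Set.Finite.mem_toFinset, Set.mem_setOf_eq, Set.mem_diff,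
        Set.mem_singleton_iff]
      refine ⟨fun ⟨h1, h2⟩ => ⟨⟨h1.1, fun h3 => h1.2 (h3 ▸ he.2.2), h2.symm⟩,
        fun h3 => h1.2 (h3 ▸ Commute.refl _)⟩, fun ⟨h1, h2⟩ => ⟨⟨h1.1, ?_⟩, h1.2.2.symm⟩⟩
      exact h e he.1 x ⟨hx, he.2.1.symm, he.2.2.symm⟩ z h1 (Ne.symm h2)
  obtain ⟨n, hn⟩ := IsPGroup.iff_card.1 hK
  have ha0 : a ≠ 0 := by
    rintro rfl
    obtain ⟨z, hz, h1, h2⟩ := F.V_triv hx hy.1 hy.2.1
    obtain ⟨u, hu⟩ := Set.ncard_eq_one.1 ha
    have h3 : z ∈ Dd D x := ⟨hz, fun h3 => h2 (h3 ▸ hy.2.2.symm), h1⟩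
    rw [hu] at h3 hy
    exact h2 (by rw [hy, h3])
  have h1 : 3 ^ a - 1 ∣ 4 * 3 ^ (n + b) := by
    have := mul_dvd_mul_right hA (3 ^ b)
    rw [hcount, hn] at this
    exact (Dvd.intro_left _ rfl).trans (this.trans (dvd_of_eq (by ring)))
  have h2 : (3 ^ a - 1).Coprime (3 ^ (n + b)) := by
    apply Nat.Coprime.pow_right
    rw [Nat.coprime_comm, Nat.Prime.coprime_iff_not_dvd Nat.prime_three]
    have := Nat.one_le_pow a 3 (by decide)
    have := dvd_pow_self 3 ha0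
    omega
  have h3 := Nat.le_of_dvd (by decide) (h2.dvd_of_dvd_mul_right h1)
  have h4 : a < 2 := (Nat.pow_lt_pow_iff_right (by decide : 1 < 3)).1 (by omega)
  rw [ha, show a = 1 by omega]; rfl

theorem iso_S5_of_W {x y y' : G} (hy : y ∈ Dd D x) (hy' : y' ∈ Dd D x) (hx : x ∈ D)
    (hn : ¬ Commute y y') (hW : ∀ z ∈ Dd D x, z ≠ y → Commute y z → Commute y' z)
    (hZ : center G = ⊥) : Nonempty (G ≃* Equiv.Perm (Fin 5)) := by
  have h3 := F.ncard_Dd_of_no_triangle (F.no_triangle hy hy' hx hn hW) hx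
  obtain ⟨v, hv, v1, v2, v3⟩ := F.W_triv hy.1 hy'.1 hn
  have h2 : ¬ Commute v x := fun h2 => v3 (hW v ⟨hv, fun h3 => v3 (h3 ▸ hy'.2.2.symm),
    h2.symm⟩ v1 v2)
  have hne : y ≠ y' := fun h => hn (h ▸ Commute.refl y)
  refine iso_S5 (F.sq hy.1) (F.sq hy'.1) (F.sq hv) (F.sq hx) (F.cube hy.1 hy'.1 hn)
    (F.two hy.1 hv v2) (F.two hy.1 hx hy.2.2.symm) (F.cube hy'.1 hv v3) (F.two hy'.1 hx hy'.2.2.symm)
    (F.cube hv hx h2) hne (fun H h4 h5 h6 h7 => ?_) hZ
  have h8 : ({y, y', y * y' * y⁻¹} : Set G) = Dd D x := by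
    refine Set.eq_of_subset_of_ncard_le ?_ (h3.trans (Set.ncard_eq_three.2 ⟨_, _, _, hne, ?_, ?_,
      rfl⟩).symm).le
    · rintro _ (rfl | rfl | rfl)
      exacts [hy, hy', F.conj_Dd hy.2.2.symm hy']
    · exact fun h => hne (by
        have h' := mul_inv_eq_iff_eq_mul.1 h.symm
        exact (mul_left_cancel h').symm)
    · exact fun h => hn (commute_of_conj_eq h.symm)
  have h9 : closure (perp D x) ≤ H := (closure_le _).2 fun z hz => by
    by_cases h : z = x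
    · exact h ▸ h7
    · have : z ∈ Dd D x := ⟨hz.1, h, hz.2⟩
      rw [← h8] at this
      rcases this with rfl | rfl | rfl
      exacts [h4, h5, mul_mem (mul_mem h4 h5) (inv_mem h4)]
  rw [eq_top_iff, ← F.gen, closure_le]
  intro z hz
  by_cases h : Commute x z
  · exact h9 (subset_closure ⟨hz, h⟩)
  · obtain ⟨g, hg, rfl⟩ := F.HR_all hx hv hz (fun h => h2 h.symm) h
    exact mul_mem (mul_mem (h9 hg) h6) (inv_mem (h9 hg))

theorem iso_S5_of_odd {x : G} (hx : x ∈ D) (hZ : center G = ⊥) (N : Subgroup (closure (Dd D x)))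
    [hN : N.Normal] (ho : Odd (Nat.card N)) (h : ¬ N ≤ center _) :
    Nonempty (G ≃* Equiv.Perm (Fin 5)) := by
  have hD := F.Dd_class hx
  obtain ⟨q, hq, y, hy, hqy⟩ : ∃ q ∈ N, ∃ y ∈ (closure (Dd D x)).subtype ⁻¹' (Dd D x),
      ¬ Commute q y := by
    by_contra hn
    push Not at hn
    refine h fun q hq => mem_center_iff.2 fun g => mem_centralizer_singleton_iff.1 ?_
    exact ((closure_le (centralizer {q})).2 fun y hy => mem_centralizer_singleton_iff.2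
      (hn q hq y hy).symm) (hD.2.2 ▸ mem_top g)
  have h1 : ∀ a ∈ (closure (Dd D x)).subtype ⁻¹' (Dd D x), ∀ b ∈ (closure (Dd D x)).subtype ⁻¹'
      (Dd D x), Commute a b → a * b ∈ N → a = b := by
    intro a ha b hb hab hm
    by_contra hne
    refine odd_card_iff_no_involution.1 ho _ hm (CfsgH4.orderOf_eq_two_iff.2 ⟨?_, fun h2 => hne ?_⟩)
    · rw [← _root_.sq, sq_of_commute (tt_sq hD.1 ha) (tt_sq hD.1 hb) hab]
    · rw [eq_inv_of_mul_eq_one_left h2, tt_inv hD.1 hb]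
  have hy' := class_conj hD q y hy
  have h2 : QuotientGroup.mk' N (q * y * q⁻¹) = QuotientGroup.mk' N y := by
    have : QuotientGroup.mk' N q = 1 := (QuotientGroup.eq_one_iff _).2 hq
    simp only [map_mul, map_inv, this, one_mul, inv_one, mul_one]
  have h3 : ∀ a ∈ (closure (Dd D x)).subtype ⁻¹' (Dd D x), ∀ b,
      QuotientGroup.mk' N a = QuotientGroup.mk' N b → a * b ∈ N := fun a ha b hab => by
    rw [← QuotientGroup.eq_one_iff, ← QuotientGroup.mk'_apply, map_mul, ← hab, ← map_mul,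
      tt_sq hD.1 ha, map_one]
  refine F.iso_S5_of_W hy hy' hx (fun h4 => hqy (commute_of_conj_eq (h1 y hy _ hy'
    (Subtype.ext h4) (h3 y hy _ h2.symm)).symm)) (fun z hz hzy h4 => ?_) hZ
  by_contra h5
  let z' : closure (Dd D x) := ⟨z, subset_closure hz⟩
  have h6 := congrArg (QuotientGroup.mk' N) (tt_braid hD.1 hy' (b := z') hz
    fun h => h5 (congrArg Subtype.val h))
  have h7 : Commute y z' := Subtype.ext h4
  rw [map_mul, map_mul _ _ z', map_mul _ _ z', map_mul _ z', h2, ← (h7.map _).eq, mul_assoc,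
    mul_assoc, mul_right_inj, ← (h7.map _).eq, mul_left_inj] at h6
  exact hzy (congrArg Subtype.val (h1 y hy z' hz h7 (h3 y hy _ h6))).symm

end Fis

end CfsgH4
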