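import Cfsg.Agent.H4.Fischer4
import Cfsg.Agent.H4.Parity

/-! Fischer's theory: the polar space attached to a class with thick singular lines. -/

set_option autoImplicit false

namespace CfsgH4

open Subgroup

variable {G : Type*} [Group G]

/-- the singular line through two commuting transpositions -/
def ln (D : Set G) (x y : G) : Set G :=
  {z | z ∈ D ∧ ∀ u ∈ D, Commute u x → Commute u y → Commute u z}

/-- singular lines -/
def IsLn (D l : Set G) : Prop := ∃ x ∈ D, ∃ y ∈ Dd D x, l = ln D x y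

theorem ln_comm (D : Set G) (x y : G) : ln D x y = ln D y x :=
  Set.ext fun _ => ⟨fun h => ⟨h.1, fun u hu h1 h2 => h.2 u hu h2 h1⟩,
    fun h => ⟨h.1, fun u hu h1 h2 => h.2 u hu h2 h1⟩⟩

theorem left_mem_ln {D : Set G} {x : G} (hx : x ∈ D) (y : G) : x ∈ ln D x y :=
  ⟨hx, fun _ _ h _ => h⟩

theorem right_mem_ln {D : Set G} (x : G) {y : G} (hy : y ∈ D) : y ∈ ln D x y :=
  ⟨hy, fun _ _ _ h => h⟩

theorem IsLn.sub {D l : Set G} (h : IsLn D l) : l ⊆ D := by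
  obtain ⟨x, -, y, -, rfl⟩ := h
  exact fun _ h => h.1

theorem IsLn.comm {D l : Set G} (h : IsLn D l) {a b : G} (ha : a ∈ l) (hb : b ∈ l) :
    Commute a b := by
  obtain ⟨x, hx, y, hy, rfl⟩ := h
  exact hb.2 a ha.1 (ha.2 x hx (Commute.refl x) hy.2.2).symm
    (ha.2 y hy.1 hy.2.2.symm (Commute.refl y)).symm

theorem isLn_ln {D : Set G} {x y : G} (hx : x ∈ D) (hy : y ∈ D) (h : y ≠ x) (h' : Commute x y) :
    IsLn D (ln D x y) := ⟨x, hx, y, ⟨hy, h, h'⟩, rfl⟩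

/-- thick singular lines and trivial centre -/
structure Pol (D : Set G) : Prop extends Fis D where
  thick : ∀ x ∈ D, ∀ y ∈ Dd D x, ∃ z ∈ ln D x y, z ≠ x ∧ z ≠ y
  cen : center G = ⊥

namespace Fis

variable {D : Set G} (F : Fis D)
include F

theorem mem_iff (g y : G) : y ∈ D ↔ g * y * g⁻¹ ∈ D :=
  ⟨F.conj g y, fun h => by simpa [mul_assoc] using F.conj g⁻¹ _ h⟩

theorem ln_conj {x y z : G} (g : G) (h : z ∈ ln D x y) :
    g * z * g⁻¹ ∈ ln D (g * x * g⁻¹) (g * y * g⁻¹) := by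
  refine ⟨F.conj _ _ h.1, fun u hu h1 h2 => ?_⟩
  obtain ⟨u, rfl⟩ : ∃ u', g * u' * g⁻¹ = u := ⟨g⁻¹ * u * g, by group⟩
  rw [commute_conj_iff] at h1 h2 ⊢
  exact h.2 u ((F.mem_iff g u).2 hu) h1 h2

theorem ln_iff (g x y z : G) :
    z ∈ ln D x y ↔ g * z * g⁻¹ ∈ ln D (g * x * g⁻¹) (g * y * g⁻¹) :=
  ⟨F.ln_conj g, fun h => by simpa [mul_assoc] using F.ln_conj g⁻¹ h⟩

theorem cj_inj {a b c : G} (ha : a ∈ D) (hb : b ∈ D) (hc : c ∈ D) (h1 : ¬ Commute a b)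
    (h2 : ¬ Commute a c) (h : b * a * b = c * a * c) : b = c := by
  rw [← F.braid ha hb h1, ← F.braid ha hc h2] at h
  simpa using h

theorem commute_mul_iff {a b e : G} (ha : a ∈ D) (hb : b ∈ D) (he : e ∈ D) (hab : a ≠ b)
    (h : Commute a b) : Commute e (a * b) ↔ Commute e a ∧ Commute e b :=
  tt_commute_mul_two F.tt ha hb he hab h

theorem exists_swap {p a b : G} (hp : p ∈ D) (ha : a ∈ D) (hb : b ∈ D) (hab : a ≠ b)
    (h : Commute a b) (h1 : ¬ Commute p a) (h2 : ¬ Commute p b) :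
    p * (a * b * p * b * a) * a * (p * (a * b * p * b * a))⁻¹ = b ∧
      p * (a * b * p * b * a) * b * (p * (a * b * p * b * a))⁻¹ = a ∧
      a * b * p * b * a ∈ Dd D p := by
  have sp := F.sq hp; have sa := F.sq ha; have sb := F.sq hb
  have r0 := F.cube hp ha h1; have r1 := F.cube hp hb h2; have r2 := F.two ha hb h
  refine ⟨mul_inv_eq_iff_eq_mul.2 ?_, mul_inv_eq_iff_eq_mul.2 ?_, ?_, fun h3 => h1 ?_, ?_⟩
  · simpa only [mul_assoc] using 
        (show p * a * b * p * b * a * a = b * p * a * b * p * b * a from weq [p, a, b] ⟨sp, sa,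
        sb⟩ [([0, 1], 3), ([0, 2], 3), ([1, 2], 2)] ⟨r0, r1, r2⟩ [0, 1, 2, 0, 2, 1, 1] [2, 0, 1,
        2, 0, 2, 1] [(4, 2, 0, false), (6, 2, 0, false), (3, 0, 1, false), (4, 1, 1, false), (1,
        2, 1, false)] (by decide))
  · simpa only [mul_assoc] using 
        (show p * a * b * p * b * a * b = a * p * a * b * p * b * a from weq [p, a, b] ⟨sp, sa,
        sb⟩ [([0, 1], 3), ([0, 2], 3), ([1, 2], 2)] ⟨r0, r1, r2⟩ [0, 1, 2, 0, 2, 1, 2] [1, 0, 1,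
        2, 0, 2, 1] [(4, 2, 0, false), (2, 1, 0, false), (0, 0, 1, false)] (by decide))
  · simpa only [mul_assoc] using F.cj ha (F.cj hb hp)
  · refine ((F.commute_mul_iff ha hb hp hab h).1 (commute_of_conj_eq ?_).symm).1
    rw [mul_inv_rev, F.inv ha, F.inv hb, ← mul_assoc, h3]
  · simpa only [Commute, SemiconjBy, mul_assoc] using 
        (show p * a * b * p * b * a = a * b * p * b * a * p from weq [p, a, b] ⟨sp, sa, sb⟩
        [([0, 1], 3), ([0, 2], 3), ([1, 2], 2)] ⟨r0, r1, r2⟩ [0, 1, 2, 0, 2, 1] [1, 2, 0, 2, 1,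
        0] [(2, 1, 0, false), (4, 0, 1, false), (5, 1, 1, false), (3, 2, 0, false), (0, 0, 1,
        false)] (by decide))

variable [Finite G]

theorem eq_ln {l : Set G} (h : IsLn D l) {a b : G} (ha : a ∈ l) (hb : b ∈ l) (hab : a ≠ b) :
    l = ln D a b := by
  have hc := h.comm ha hb
  obtain ⟨x, hx, y, hy, rfl⟩ := h
  obtain ⟨g, h1, h2⟩ := F.pair_trans ha.1 hx ⟨hb.1, hab.symm, hc⟩ hy
  have h3 : {u | u ∈ D ∧ Commute u x ∧ Commute u y} = {u | u ∈ D ∧ Commute u a ∧ Commute u b} := by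
    refine Set.eq_of_subset_of_ncard_le (fun u hu => ⟨hu.1, ha.2 u hu.1 hu.2.1 hu.2.2,
      hb.2 u hu.1 hu.2.1 hu.2.2⟩) (ncard_eq_of_conj g fun u => ?_).le
    rw [← h1, ← h2, Set.mem_setOf_eq, Set.mem_setOf_eq, commute_conj_iff, commute_conj_iff,
      ← F.mem_iff]
  ext z
  refine ⟨fun h => ⟨h.1, fun u hu h1 h2 => ?_⟩, fun h => ⟨h.1, fun u hu h1 h2 => ?_⟩⟩
  · have : u ∈ {u | u ∈ D ∧ Commute u x ∧ Commute u y} := h3 ▸ ⟨hu, h1, h2⟩
    exact h.2 u hu this.2.1 this.2.2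
  · have : u ∈ {u | u ∈ D ∧ Commute u a ∧ Commute u b} := h3 ▸ ⟨hu, h1, h2⟩
    exact h.2 u hu this.2.1 this.2.2

theorem two_all {l : Set G} (h : IsLn D l) {a b c u : G} (ha : a ∈ l) (hb : b ∈ l) (hab : a ≠ b)
    (hu : u ∈ D) (h1 : Commute u a) (h2 : Commute u b) (hc : c ∈ l) : Commute u c := by
  rw [F.eq_ln h ha hb hab] at hc
  exact hc.2 u hu h1 h2

theorem uniq {l : Set G} (h : IsLn D l) {a b c u : G} (ha : a ∈ l) (hb : b ∈ l) (hc : c ∈ l)
    (hu : u ∈ D) (h1 : Commute u a) (h2 : ¬ Commute u b) (hac : c ≠ a) : ¬ Commute u c :=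
  fun h3 => h2 (F.two_all h hc ha hac hu h3 h1 hb)

theorem ln_stab {l : Set G} (h : IsLn D l) {a b c g : G} (ha : a ∈ l) (hb : b ∈ l) (hab : a ≠ b)
    (h1 : g * a * g⁻¹ ∈ l) (h2 : g * b * g⁻¹ ∈ l) (hc : c ∈ l) : g * c * g⁻¹ ∈ l := by
  rw [F.eq_ln h h1 h2 (by simpa using hab)]
  rw [F.eq_ln h ha hb hab] at hc
  exact F.ln_conj g hc

theorem ncard_ln {l m : Set G} (h : IsLn D l) (h' : IsLn D m) : l.ncard = m.ncard := by
  obtain ⟨x, hx, y, hy, rfl⟩ := h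
  obtain ⟨a, ha, b, hb, rfl⟩ := h'
  obtain ⟨g, rfl, rfl⟩ := F.pair_trans hx ha hy hb
  exact ncard_eq_of_conj g (F.ln_iff g x y)

theorem exists_trans {l : Set G} (h : IsLn D l) {p a b : G} (hp : p ∈ D) (ha : a ∈ l) (hb : b ∈ l)
    (hab : a ≠ b) (h1 : ¬ Commute p a) (h2 : ¬ Commute p b) :
    ∀ c ∈ l, ¬ Commute p c → ∃ t ∈ l, ¬ Commute p t ∧ t ≠ c ∧
      t = p * (a * b * p * b * a) * c * (p * (a * b * p * b * a))⁻¹ ∧
      c = p * (a * b * p * b * a) * t * (p * (a * b * p * b * a))⁻¹ := by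
  intro c hc h3
  obtain ⟨w1, w2, w3⟩ := F.exists_swap hp (h.sub ha) (h.sub hb) hab (h.comm ha hb) h1 h2
  refine ⟨_, F.ln_stab h ha hb hab (w1.symm ▸ hb) (w2.symm ▸ ha) hc, ?_, fun h4 => h3 ?_, rfl, ?_⟩
  · rwa [commute_conj_right ((Commute.refl p).mul_left w3.2.2.symm)]
  · exact ((F.commute_mul_iff hp w3.1 (h.sub hc) w3.2.1.symm w3.2.2).1
      (commute_of_conj_eq h4).symm).1.symm
  · have := F.two hp w3.1 w3.2.2
    generalize p * (a * b * p * b * a) = w at this ⊢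
    rw [show w * (w * c * w⁻¹) * w⁻¹ = w ^ 2 * c * (w ^ 2)⁻¹ by rw [pow_two]; group, this]
    simp

theorem even_ncard {l : Set G} (h : IsLn D l) {p a b : G} (hp : p ∈ D) (ha : a ∈ l) (hb : b ∈ l)
    (hab : a ≠ b) (h1 : ¬ Commute p a) (h2 : ¬ Commute p b) :
    Even {c | c ∈ l ∧ ¬ Commute p c}.ncard := by
  classical
  have h3 := F.exists_trans h hp ha hb hab h1 h2
  rw [Set.ncard_eq_toFinset_card _, Nat.even_iff, card_filter_fixed_mod_two _
    (fun c => p * (a * b * p * b * a) * c * (p * (a * b * p * b * a))⁻¹), Finset.filter_eq_empty_iff.2]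
  · rfl
  all_goals
    intro c hc
    rw [Set.Finite.mem_toFinset] at hc
    obtain ⟨t, t1, t2, t3, t4, t5⟩ := h3 c hc.1 hc.2
  · rw [← t4]; exact t3
  · rw [← t4, Set.Finite.mem_toFinset]; exact ⟨t1, t2⟩
  · rw [← t4, ← t5]

theorem exists_fourth {l : Set G} (h : IsLn D l) {p a b c : G} (hp : p ∈ D) (ha : a ∈ l)
    (hb : b ∈ l) (hc : c ∈ l) (hab : a ≠ b) (hac : a ≠ c) (hbc : b ≠ c) (h1 : ¬ Commute p a)
    (h2 : ¬ Commute p b) (h3 : ¬ Commute p c) :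
    ∃ t ∈ l, ¬ Commute p t ∧ t ≠ a ∧ t ≠ b ∧ t ≠ c ∧ Commute p (a * b * c * t) := by
  obtain ⟨t, t1, t2, t3, t4, t5⟩ := F.exists_trans h hp ha hb hab h1 h2 c hc h3
  obtain ⟨w1, w2, w3⟩ := F.exists_swap hp (h.sub ha) (h.sub hb) hab (h.comm ha hb) h1 h2
  refine ⟨t, t1, t2, fun h4 => hbc ?_, fun h4 => hac ?_, t3, ?_⟩
  · rw [t5, h4, w1]
  · rw [t5, h4, w2]
  · have sp := F.sq hp; have sa := F.sq (h.sub ha); have sb := F.sq (h.sub hb)
    have sc := F.sq (h.sub hc)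
    have r0 := F.cube hp (h.sub ha) h1; have r1 := F.cube hp (h.sub hb) h2
    have r2 := F.cube hp (h.sub hc) h3
    have r3 := F.two (h.sub ha) (h.sub hb) (h.comm ha hb)
    have r4 := F.two (h.sub ha) (h.sub hc) (h.comm ha hc)
    have r5 := F.two (h.sub hb) (h.sub hc) (h.comm hb hc)
    rw [t4, mul_inv_rev, F.inv hp, F.inv w3.1]
    simpa only [Commute, SemiconjBy, mul_assoc] using
      
        (show p * a * b * c * p * a * b * p * b * a * c * a * b * p * b * a * p = a * b * c * p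
        * a * b * p * b * a * c * a * b * p * b * a * p * p from weq [p, a, b, c] ⟨sp, sa, sb,
        sc⟩ [([0, 1], 3), ([0, 2], 3), ([0, 3], 3), ([1, 2], 2), ([1, 3], 2), ([2, 3], 2)] ⟨r0,
        r1, r2, r3, r4, r5⟩ [0, 1, 2, 3, 0, 1, 2, 0, 2, 1, 3, 1, 2, 0, 2, 1, 0] [1, 2, 3, 0, 1,
        2, 0, 2, 1, 3, 1, 2, 0, 2, 1, 0, 0] [(21, 4, 1, false), (20, 5, 1, false), (9, 4, 1,
        false), (8, 5, 1, false), (11, 0, 0, false), (13, 1, 1, false), (12, 3, 1, false), (9,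
        1, 1, false), (8, 5, 0, false), (6, 1, 0, false), (4, 0, 1, false), (3, 4, 0, false),
        (1, 3, 1, false), (18, 3, 0, false), (17, 4, 0, false), (15, 0, 0, false), (13, 1, 1,
        false), (11, 5, 1, false), (10, 2, 1, false), (9, 4, 1, false), (6, 2, 1, false), (7, 0,
        1, false), (6, 4, 0, false), (4, 3, 1, false), (9, 3, 0, false), (7, 4, 1, false), (5,
        2, 0, false), (10, 5, 0, false), (7, 1, 1, false), (6, 5, 0, false), (3, 1, 1, false),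
        (4, 2, 1, false), (1, 5, 1, false)] (by decide))

end Fis

namespace Pol

variable {D : Set G} (P : Pol D) [Finite G]
include P

theorem third {l : Set G} (h : IsLn D l) {a b : G} (ha : a ∈ l) (hb : b ∈ l) (hab : a ≠ b) :
    ∃ z ∈ l, z ≠ a ∧ z ≠ b := by
  have := P.thick a (h.sub ha) b ⟨h.sub hb, hab.symm, h.comm ha hb⟩
  rwa [← P.eq_ln h ha hb hab] at this

theorem odd_ncard {l : Set G} (h : IsLn D l) : Odd l.ncard := by
  obtain ⟨x, hx, y, hy, hl⟩ := id h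
  have h1 : x ∈ l := hl ▸ left_mem_ln hx y
  have h2 : y ∈ l := hl ▸ right_mem_ln x hy.1
  obtain ⟨z, hz, z1, z2⟩ := P.third h h1 h2 hy.2.1.symm
  obtain ⟨p, hp, p1, p2⟩ := P.V_triv hx hy.1 hy.2.1
  have h3 := P.even_ncard h hp h2 hz z2.symm (fun h => p2 h.symm)
    (P.uniq h h1 h2 hz hp p1.symm (fun h => p2 h.symm) z1)
  have h4 : {c | c ∈ l ∧ ¬ Commute p c} = l \ {x} := Set.ext fun c =>
    ⟨fun hc => ⟨hc.1, fun h4 => hc.2 (h4 ▸ p1.symm)⟩, fun hc =>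
      ⟨hc.1, P.uniq h h1 h2 hc.1 hp p1.symm (fun h => p2 h.symm) hc.2⟩⟩
  rw [← Set.ncard_diff_singleton_add_one h1, ← h4]
  exact h3.add_one

theorem one {l : Set G} (h : IsLn D l) {p : G} (hp : p ∈ D) : ∃ c ∈ l, Commute p c := by
  by_contra hn
  push Not at hn
  obtain ⟨x, hx, y, hy, hl⟩ := id h
  have h1 : x ∈ l := hl ▸ left_mem_ln hx y
  have h2 : y ∈ l := hl ▸ right_mem_ln x hy.1
  have h3 := P.even_ncard h hp h1 h2 hy.2.1.symm (hn _ h1) (hn _ h2)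
  rw [show {c | c ∈ l ∧ ¬ Commute p c} = l from Set.ext fun c =>
    ⟨fun hc => hc.1, fun hc => ⟨hc, hn c hc⟩⟩] at h3
  exact Nat.not_even_iff_odd.2 (P.odd_ncard h) h3

theorem le_of_M {x f y z : G} (hx : x ∈ D) (hf : f ∈ D) (h : ¬ Commute x f) (hy : y ∈ D)
    (hz : z ∈ D) (h1 : Commute x y) (h2 : Commute x z)
    (h3 : ∀ u ∈ D, Commute x u → Commute f u → Commute y u → Commute z u) : z ∈ ln D x y := by
  refine ⟨hz, fun u hu u1 u2 => ?_⟩
  by_cases h4 : u = x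
  · rwa [h4]
  have hl := isLn_ln hx hu h4 u1.symm
  obtain ⟨c, hc, c1⟩ := P.one hl hf
  have c2 : c ≠ x := fun h5 => h (h5 ▸ c1.symm)
  exact (P.two_all hl hc (left_mem_ln hx u) c2 hz (h3 c hc.1 (hl.comm (left_mem_ln hx u) hc) c1
    (hc.2 y hy h1.symm u2.symm)) h2.symm (right_mem_ln x hu)).symm

theorem M_nondeg {x f y : G} (hx : x ∈ D) (hf : f ∈ D) (h : ¬ Commute x f) (hy : y ∈ Dd D x) :
    ∃ z ∈ D, Commute x z ∧ Commute f z ∧ ¬ Commute y z := by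
  obtain ⟨u, hu, u1, u2⟩ := P.V_triv hx hy.1 hy.2.1
  have h4 : u ≠ x := fun h4 => u2 (h4 ▸ hy.2.2.symm)
  have hl := isLn_ln hx hu h4 u1
  obtain ⟨c, hc, c1⟩ := P.one hl hf
  exact ⟨c, hc.1, hl.comm (left_mem_ln hx u) hc, c1, P.uniq hl (left_mem_ln hx u)
    (right_mem_ln x hu) hc hy.1 hy.2.2.symm u2 fun h5 => h (h5 ▸ c1.symm)⟩

theorem L1 {x f y y' : G} (hx : x ∈ D) (hf : f ∈ D) (h : ¬ Commute x f) (hy : y ∈ D)
    (h1 : Commute x y) (h2 : Commute f y) (hy' : y' ∈ ln D x y) (h3 : y' ≠ x) (h4 : y' ≠ y) :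
    x * y' * f * y' * x ∈ ln D f y := by
  have hyx : y ≠ x := fun h5 => h (h5 ▸ h2.symm)
  have hl := isLn_ln hx hy hyx h1
  have h5 : ¬ Commute f y' := P.uniq hl (right_mem_ln x hy) (left_mem_ln hx y) hy' hf h2
    (fun h5 => h h5.symm) h4
  have h6 := hl.comm (left_mem_ln hx y) hy'
  obtain ⟨w1, -, w3⟩ := P.exists_swap hf hx hy'.1 h3.symm h6 (fun h5 => h h5.symm) h5
  have hm := isLn_ln hf w3.1 w3.2.1 w3.2.2
  obtain ⟨c, hc, c1⟩ := P.one hm hx
  have c2 := hm.comm (left_mem_ln hf _) hc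
  have c3 := hm.comm (right_mem_ln f w3.1) hc
  have c4 : Commute y' c := by
    rw [← w1, commute_conj_left (c2.mul_left c3)]; exact c1
  have c5 := P.le_of_M hx hf h hy hc.1 h1 c1 fun u hu u1 u2 u3 => by
    have u4 := hy'.2 u hu u1.symm u3.symm
    exact (hc.2 u hu u2.symm ((((u1.symm.mul_right u4).mul_right u2.symm).mul_right u4).mul_right
      u1.symm)).symm
  have c6 : c = y := by
    by_contra c6
    exact P.uniq hl (right_mem_ln x hy) (left_mem_ln hx y) c5 hf h2 (fun h5 => h h5.symm) c6 c2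
  rw [← P.eq_ln hm (left_mem_ln hf _) (c6 ▸ hc) fun h5 => h (h5 ▸ h1)]
  exact right_mem_ln f w3.1

/-- products of two points of a line through `x` fix all lines through `x` -/
theorem L2 {x a b b' : G} (hx : x ∈ D) {l n : Set G} (hl : IsLn D l) (hn : IsLn D n) (h1 : x ∈ l)
    (h2 : x ∈ n) (hb : b ∈ l) (hb' : b' ∈ l) (h3 : b ≠ x) (h4 : b' ≠ x) (ha : a ∈ n) :
    b * b' * a * (b * b')⁻¹ ∈ n := by
  by_cases h5 : Commute b a
  · rwa [conj_eq_of_commute (h5.mul_left (P.two_all hl h1 hb h3.symm (hn.sub ha) (hn.comm ha h2)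
      h5.symm hb').symm)]
  by_cases h6 : b' = b
  · rw [h6, P.sq (hl.sub hb)]; simpa
  have h7 := P.L1 (hl.sub hb) (hn.sub ha) h5 hx (hl.comm hb h1) (hn.comm ha h2)
    (P.eq_ln hl hb h1 h3 ▸ hb') h6 h4
  rw [← P.eq_ln hn ha h2 fun h8 => h5 (h8 ▸ hl.comm hb h1)] at h7
  rwa [mul_inv_rev, P.inv (hl.sub hb), P.inv (hl.sub hb'), ← mul_assoc]

theorem lemC {x q a a' b b' b₀ : G} (hx : x ∈ D) (hq : q ∈ D) (hxq : ¬ Commute q x) {l n : Set G}
    (hl : IsLn D l) (hn : IsLn D n) (h1 : x ∈ l) (h2 : x ∈ n) (hb : b ∈ l) (hb' : b' ∈ l)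
    (hb₀ : b₀ ∈ l) (ha : a ∈ n) (ha' : a' ∈ n) (h3 : b ≠ x) (h4 : b' ≠ x) (h5 : b ≠ b')
    (h6 : a' ≠ x) (h7 : a' ≠ a) (h8 : Commute q a) (h9 : Commute q b₀) (h10 : ¬ Commute b₀ a)
    (h11 : b * b' * a * (b * b')⁻¹ ≠ a') :
    a * a' * (b * b') * (a * a')⁻¹ * (b * b') * q * (a * a' * (b * b') * (a * a')⁻¹ * (b * b'))⁻¹ =
      x * q * x := by
  have hax : a ≠ x := fun h => hxq (h ▸ h8)
  have hna : ∀ c ∈ l, c ≠ x → ∀ d ∈ n, d ≠ x → ¬ Commute c d := fun c hc hcx d hd hdx =>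
    P.uniq hn h2 ha hd (hl.sub hc) (hl.comm hc h1) (fun h => P.uniq hl h1 hb₀ hc (hn.sub ha)
      (hn.comm ha h2) (fun h => h10 h.symm) hcx h.symm) hdx
  set v := b * b' with hv
  have hvv : v * v = 1 := by rw [← pow_two]; exact P.two (hl.sub hb) (hl.sub hb') (hl.comm hb hb')
  have hvx : Commute v x := (hl.comm hb h1).mul_left (hl.comm hb' h1)
  have hvi : v⁻¹ = v := inv_eq_of_mul_eq_one_right hvv
  have hmv : ∀ d ∈ n, d ≠ x → v * d * v⁻¹ ∈ n ∧ v * d * v⁻¹ ≠ x ∧ v * d * v⁻¹ ≠ d :=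
    fun d hd hdx => ⟨P.L2 hx hl hn h1 h2 hb hb' h3 h4 hd, fun h => hdx (by
      rw [← conj_eq_of_commute hvx] at h; simpa using h), fun h => hna b hb h3 d hd hdx
      ((P.commute_mul_iff (hl.sub hb) (hl.sub hb') (hn.sub hd) h5 (hl.comm hb hb')).1
        (commute_of_conj_eq h).symm).1.symm⟩
  obtain ⟨m1, m2, m3⟩ := hmv a ha hax
  obtain ⟨m4, m5, m6⟩ := hmv a' ha' h6
  have m7 : v * a' * v⁻¹ ≠ a := fun h => h11 (by
    rw [← h, hvi, show v * (v * a' * v) * v = (v * v) * a' * (v * v) by group, hvv]; simp)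
  have hq' : ∀ d ∈ n, d ≠ a → ¬ Commute q d := fun d hd h => P.uniq hn ha h2 hd hq h8 hxq h
  obtain ⟨t, t1, t2, -, -, -, t6⟩ := P.exists_fourth hn hq ha' m1 m4 h11.symm m6.symm
    (by simpa using h7.symm) (hq' _ ha' h7) (hq' _ m1 m3) (hq' _ m4 m7)
  have hc : a * a' * v * (a * a')⁻¹ * v = a * (a' * (v * a * v⁻¹) * (v * a' * v⁻¹) * t) * t := by
    rw [mul_inv_rev, P.inv (hn.sub ha), P.inv (hn.sub ha'), hvi,
      ← (hn.comm ha ha').eq]
    simp only [mul_assoc, P.sq (hn.sub t1), mul_one]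
    rw [← mul_assoc v v, hvv, one_mul]
  have hc2 : a * a' * v * (a * a')⁻¹ * v * q * (a * a' * v * (a * a')⁻¹ * v)⁻¹ = t * q * t := by
    have e1 := fun {u} (hu : u ∈ n) => hn.comm t1 hu
    have e2 : Commute t (a * (a' * (v * a * v⁻¹) * (v * a' * v⁻¹) * t)) :=
      (e1 ha).mul_right ((((e1 ha').mul_right (e1 m1)).mul_right (e1 m4)).mul_right (e1 t1))
    rw [hc, ← e2.eq]
    generalize a' * (v * a * v⁻¹) * (v * a' * v⁻¹) * t = r at t6
    rw [show t * (a * r) * q * (t * (a * r))⁻¹ = t * (a * r * q * (a * r)⁻¹) * t⁻¹ by group,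
      conj_eq_of_commute (h8.mul_right t6).symm, P.inv (hn.sub t1)]
  rw [hc2]
  by_contra h12
  have h13 : Commute (a * a' * v * (a * a')⁻¹ * v) b₀ := by
    rw [show a * a' * v * (a * a')⁻¹ = a * a' * b * (a * a')⁻¹ * (a * a' * b' * (a * a')⁻¹) by
      rw [hv]; group]
    exact ((hl.comm (P.L2 hx hn hl h2 h1 ha ha' hax h6 hb) hb₀).mul_left
      (hl.comm (P.L2 hx hn hl h2 h1 ha ha' hax h6 hb') hb₀)).mul_left
      ((hl.comm hb hb₀).mul_left (hl.comm hb' hb₀))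
  have h14 := (commute_conj_left h13).2 h9
  rw [hc2, ← P.braid hq (hn.sub t1) t2, P.cj_left hq h9] at h14
  exact hna b₀ hb₀ (fun h => hxq (h ▸ h9)) t t1 (fun h => h12 (by rw [h])) h14.symm

theorem ncard_le {l : Set G} (hl : IsLn D l) : l.ncard ≤ 5 := by
  obtain ⟨x, hx, -⟩ := id hl
  obtain ⟨q, hq, hxq⟩ := P.exn' hx
  obtain ⟨c, ⟨g, hg, rfl⟩, e, he, e1, e2⟩ := P.exists_HR_common hx hq hxq
  rw [← commute_conj_right (commute_of_mem_perp hg)] at hxq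
  replace hq := P.conj g q hq
  generalize g * q * g⁻¹ = q at hq hxq e2
  have hex : e ≠ x := fun h => hxq (h ▸ e2.symm)
  obtain ⟨a, ha, a1, a2, a3⟩ := P.M_nondeg hx hq hxq ⟨he, hex, e1⟩
  have hax : a ≠ x := fun h => hxq (h ▸ a2.symm)
  have hn := isLn_ln hx ha hax a1
  rw [P.ncard_ln hl (isLn_ln hx he hex e1)]
  replace hl := isLn_ln hx he hex e1
  have h1 := left_mem_ln hx e
  have h2 := left_mem_ln hx a
  have h3 := right_mem_ln x he
  have h4 := right_mem_ln x ha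
  generalize ln D x e = l at *
  generalize ln D x a = n at *
  obtain ⟨a', ha', h5, h6⟩ := P.third hn h2 h4 hax.symm
  have hna : ∀ b ∈ l, b ≠ x → ¬ Commute a b := fun b hb h =>
    P.uniq hl h1 h3 hb ha a1.symm (fun h => a3 h.symm) h
  have huniq : ∀ b ∈ l, ∀ c ∈ l, ∀ c' ∈ l, c ≠ x → c' ≠ x → b * c * a * (b * c)⁻¹ = a' →
      b * c' * a * (b * c')⁻¹ = a' → c = c' := by
    intro b hb c hc c' hc' h7 h8 h9 h10
    refine P.cj_inj ha (hl.sub hc) (hl.sub hc') (hna c hc h7) (hna c' hc' h8) ?_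
    rw [← h10, mul_inv_rev, mul_inv_rev, P.inv (hl.sub hc), P.inv (hl.sub hc')] at h9
    simp only [← mul_assoc, mul_left_inj] at h9
    simpa only [mul_assoc, mul_right_inj] using h9
  have key : ∀ b ∈ l, ∀ c ∈ l, b ≠ x → c ≠ x → b ≠ e → c ≠ e → b ≠ c → e * b * a * (e * b)⁻¹ ≠ a' →
      e * c * a * (e * c)⁻¹ ≠ a' → b * c * a * (b * c)⁻¹ = a' := by
    intro b hb c hc h7 h8 h9 h10 h11 h12 h13
    by_contra h14
    have hqx : ¬ Commute q x := fun h => hxq h.symm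
    have k1 := P.lemC hx hq hqx hl hn h1 h2 h3 hb h3 h4 ha' hex h7 h9.symm h5 h6 a2 e2 a3 h12
    have k2 := P.lemC hx hq hqx hl hn h1 h2 h3 hc h3 h4 ha' hex h8 h10.symm h5 h6 a2 e2 a3 h13
    have k3 := P.lemC hx hq hqx hl hn h1 h2 hb hc h3 h4 ha' h7 h8 h11 h5 h6 a2 e2 a3 h14
    have m1 := P.L2 hx hn hl h2 h1 h4 ha' hax h5 h3
    have m2 := P.L2 hx hn hl h2 h1 h4 ha' hax h5 hb
    have m3 := P.L2 hx hn hl h2 h1 h4 ha' hax h5 hc
    have k4 : ∀ s t, a * a' * (s * t) * (a * a')⁻¹ =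
      a * a' * s * (a * a')⁻¹ * (a * a' * t * (a * a')⁻¹) := fun s t => by group
    rw [k4] at k1 k2 k3
    generalize a * a' * e * (a * a')⁻¹ = E at *
    generalize a * a' * b * (a * a')⁻¹ = B at *
    generalize a * a' * c * (a * a')⁻¹ = C at *
    have k5 : B * C * (b * c) = E * B * (e * b) * (E * C * (e * c)) := by
      have s := fun {u} (hu : u ∈ l) => P.sq (hl.sub hu)
      have r := fun {u v} (hu : u ∈ l) (hv : v ∈ l) => P.two (hl.sub hu) (hl.sub hv) (hl.comm hu hv)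
      simpa only [mul_assoc] using 
        (show B * C * b * c = E * B * e * b * E * C * e * c from weq [E, B, C, e, b, c] ⟨s m1, s
        m2, s m3, s h3, s hb, s hc⟩ [([0, 1], 2), ([0, 3], 2), ([0, 4], 2), ([2, 3], 2), ([2,
        4], 2), ([3, 4], 2)] ⟨r m1 m2, r m1 h3, r m1 hb, r m3 h3, r m3 hb, r h3 hb⟩ [1, 2, 4, 5]
        [0, 1, 3, 4, 0, 2, 3, 5] [(3, 3, 0, false), (1, 4, 1, false), (1, 5, 0, false), (2, 2,
        0, false), (1, 1, 0, false), (0, 0, 0, false)] (by decide))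
    have k6 : Commute (E * B * (e * b)) x := ((hl.comm m1 h1).mul_left (hl.comm m2 h1)).mul_left
      ((hl.comm h3 h1).mul_left (hl.comm hb h1))
    rw [k5] at k3
    generalize E * B * (e * b) = c₁ at *
    generalize E * C * (e * c) = c₂ at *
    rw [show c₁ * c₂ * q * (c₁ * c₂)⁻¹ = c₁ * (c₂ * q * c₂⁻¹) * c₁⁻¹ by group, k2,
      show c₁ * (x * q * x) * c₁⁻¹ = c₁ * x * c₁⁻¹ * (c₁ * q * c₁⁻¹) * (c₁ * x * c₁⁻¹) by group, k1,
      conj_eq_of_commute k6, show x * (x * q * x) * x = (x * x) * q * (x * x) by group, P.sq hx,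
      one_mul, mul_one] at k3
    exact hxq (commute_of_conj_eq (by rw [P.inv hx, ← k3]))
  by_contra hlt
  obtain ⟨b₀, hb₀⟩ : ∃ b₀, ∀ b ∈ l, b ≠ x → b ≠ b₀ → e * b * a * (e * b)⁻¹ ≠ a' := by
    by_cases h : ∃ b ∈ l, b ≠ x ∧ e * b * a * (e * b)⁻¹ = a'
    · obtain ⟨b₀, h7, h8, h9⟩ := h
      exact ⟨b₀, fun b hb h10 h11 h12 => h11 (huniq e h3 b hb b₀ h7 h10 h8 h12 h9)⟩
    · exact ⟨x, fun b hb h10 _ h12 => h ⟨b, hb, h10, h12⟩⟩
  have h7 : 2 < (l \ {x, e, b₀}).ncard := by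
    have := Set.ncard_le_ncard_diff_add_ncard l {x, e, b₀}
    have := Set.ncard_insert_le x {e, b₀}
    have := Set.ncard_insert_le e {b₀}
    have := Set.ncard_singleton b₀
    omega
  obtain ⟨b, c, d, hb, hc, hd, h8, h9, h10⟩ := (Set.two_lt_ncard_iff (Set.toFinite _)).1 h7
  simp only [Set.mem_diff, Set.mem_insert_iff, Set.mem_singleton_iff, not_or] at hb hc hd
  exact h10 (huniq b hb.1 c hc.1 d hd.1 hc.2.1 hd.2.1
    (key b hb.1 c hc.1 hb.2.1 hc.2.1 hb.2.2.1 hc.2.2.1 h8 (hb₀ b hb.1 hb.2.1 hb.2.2.2)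
      (hb₀ c hc.1 hc.2.1 hc.2.2.2))
    (key b hb.1 d hd.1 hb.2.1 hd.2.1 hb.2.2.1 hd.2.2.1 h9 (hb₀ b hb.1 hb.2.1 hb.2.2.2)
      (hb₀ d hd.1 hd.2.1 hd.2.2.2)))

theorem ncard_cases {l : Set G} (hl : IsLn D l) : l.ncard = 3 ∨ l.ncard = 5 := by
  have h1 := P.ncard_le hl
  obtain ⟨k, hk⟩ := P.odd_ncard hl
  obtain ⟨x, hx, y, hy, rfl⟩ := id hl
  have h2 := (Set.one_lt_ncard_iff (Set.toFinite _)).2 ⟨x, y, left_mem_ln hx y, right_mem_ln x hy.1,
    hy.2.1.symm⟩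
  omega

theorem eq_one_of_commute {g : G} (h : ∀ u ∈ D, Commute u g) : g = 1 := by
  rw [← mem_bot, ← P.cen, mem_center_iff]
  intro k
  exact mem_centralizer_singleton_iff.1 (((closure_le (centralizer {g})).2 fun u hu =>
    mem_centralizer_singleton_iff.2 (h u hu)) (P.gen ▸ mem_top k))

theorem five_prod {l : Set G} (hl : IsLn D l) (h5 : l.ncard = 5) {a b c d e : G} (ha : a ∈ l)
    (hb : b ∈ l) (hc : c ∈ l) (hd : d ∈ l) (he : e ∈ l) (hab : a ≠ b) (hac : a ≠ c) (had : a ≠ d)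
    (hae : a ≠ e) (hbc : b ≠ c) (hbd : b ≠ d) (hbe : b ≠ e) (hcd : c ≠ d) (hce : c ≠ e)
    (hde : d ≠ e) : a * b * c * d = e := by
  have key : ∀ u ∈ D, ∀ a b c d e : G, l = {a, b, c, d, e} → a ≠ b → a ≠ c → b ≠ c →
      a ≠ e → b ≠ e → c ≠ e → Commute u e → (∃ z ∈ l, ¬ Commute u z) →
      Commute u (a * b * c * d * e) := by
    intro u hu a b c d e h hab hac hbc hae hbe hce h1 ⟨z, hz, h2⟩
    have ha : a ∈ l := by simp [h]
    have hb : b ∈ l := by simp [h]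
    have hc : c ∈ l := by simp [h]
    have he : e ∈ l := by simp [h]
    obtain ⟨t, t1, t2, t3, t4, t5, t6⟩ := P.exists_fourth hl hu ha hb hc hab hac hbc
      (P.uniq hl he hz ha hu h1 h2 hae) (P.uniq hl he hz hb hu h1 h2 hbe)
      (P.uniq hl he hz hc hu h1 h2 hce)
    have : t = d := by
      rw [h] at t1
      rcases t1 with rfl | rfl | rfl | rfl | rfl
      exacts [absurd rfl t3, absurd rfl t4, absurd rfl t5, rfl, absurd h1 t2]
    exact (this ▸ t6).mul_right h1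
  have h1 : l = {a, b, c, d, e} := by
    refine (Set.eq_of_subset_of_ncard_le ?_ ?_).symm
    · rintro _ (rfl | rfl | rfl | rfl | rfl) <;> assumption
    · rw [h5, Set.ncard_insert_of_notMem (by simp [*]), Set.ncard_insert_of_notMem (by simp [*]),
        Set.ncard_insert_of_notMem (by simp [*]), Set.ncard_pair hde]
  have h2 : a * b * c * d * e = 1 := P.eq_one_of_commute fun u hu => by
    by_cases h2 : ∃ z ∈ l, ¬ Commute u z
    · have s := fun {u} (hu : u ∈ l) => P.sq (hl.sub hu)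
      have r := fun {u v} (hu : u ∈ l) (hv : v ∈ l) => P.two (hl.sub hu) (hl.sub hv) (hl.comm hu hv)
      obtain ⟨z, hz, h3⟩ := P.one hl hu
      rw [h1] at hz
      rcases hz with rfl | rfl | rfl | rfl | rfl
      · rw [
        (show z * b * c * d * e = b * c * d * e * z from weq [z, b, c, d, e] ⟨s ha, s hb, s hc,
        s hd, s he⟩ [([0, 1], 2), ([0, 2], 2), ([0, 3], 2), ([0, 4], 2)] ⟨r ha hb, r ha hc, r ha
        hd, r ha he⟩ [0, 1, 2, 3, 4] [1, 2, 3, 4, 0] [(4, 3, 0, false), (3, 2, 0, false), (2, 1,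
        0, false), (0, 0, 1, false)] (by decide))]
        exact key u hu b c d e z (by rw [h1]; ext; simp; tauto) hbc hbd hcd hab.symm hac.symm
          had.symm h3 h2
      · rw [
        (show a * z * c * d * e = a * c * d * e * z from weq [a, z, c, d, e] ⟨s ha, s hb, s hc,
        s hd, s he⟩ [([1, 2], 2), ([1, 3], 2), ([1, 4], 2)] ⟨r hb hc, r hb hd, r hb he⟩ [0, 1,
        2, 3, 4] [0, 2, 3, 4, 1] [(4, 2, 0, false), (3, 1, 0, false), (1, 0, 1, false)] (by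
        decide))]
        exact key u hu a c d e z (by rw [h1]; ext; simp; tauto) hac had hcd hab hbc.symm
          hbd.symm h3 h2
      · rw [
        (show a * b * z * d * e = a * b * d * e * z from weq [a, b, z, d, e] ⟨s ha, s hb, s hc,
        s hd, s he⟩ [([2, 3], 2), ([2, 4], 2)] ⟨r hc hd, r hc he⟩ [0, 1, 2, 3, 4] [0, 1, 3, 4,
        2] [(4, 1, 0, false), (2, 0, 1, false)] (by decide))]
        exact key u hu a b d e z (by rw [h1]; ext; simp; tauto) hab had hbd hac hbc hcd.symm h3 h2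
      · rw [
        (show a * b * c * z * e = a * b * c * e * z from weq [a, b, c, z, e] ⟨s ha, s hb, s hc,
        s hd, s he⟩ [([3, 4], 2)] (r hd he) [0, 1, 2, 3, 4] [0, 1, 2, 4, 3] [(3, 0, 1, false)]
        (by decide))]
        exact key u hu a b c e z (by rw [h1]; ext; simp; tauto) hab hac hbc had hbd hcd h3 h2
      · exact key u hu a b c d z h1 hab hac hbc hae hbe hce h3 h2
    · push Not at h2
      exact ((((h2 a ha).mul_right (h2 b hb)).mul_right (h2 c hc)).mul_right (h2 d hd)).mul_right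
        (h2 e he)
  rw [eq_inv_of_mul_eq_one_left h2, P.inv (hl.sub he)]

end Pol

end CfsgH4
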