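import Cfsg.Agent.H4.TvG
import Cfsg.Agent.H7.Symp

/-! The symplectic group over the field with two elements. -/

set_option autoImplicit false

namespace CfsgH4

open Subgroup Matrix

theorem symp_eq (n : ℕ) (u v : Fin n ⊕ Fin n → ZMod 2) : Cfsg.sympForm n (ZMod 2) u v =
    ∑ i, (u (.inr i) * v (.inl i) + u (.inl i) * v (.inr i)) := by
  simp [Cfsg.sympForm, J, dotProduct, mulVec, Fintype.sum_sum_type, one_apply,
    Finset.sum_add_distrib, add_comm]

theorem symp_single (n : ℕ) (u : Fin n ⊕ Fin n → ZMod 2) (j : Fin n ⊕ Fin n) :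
    Cfsg.sympForm n (ZMod 2) u (Pi.single j 1) = u j.swap := by
  rw [symp_eq]
  cases j <;> simp [Pi.single_apply]

theorem zmod2_sq (x : ZMod 2) : x ^ 2 = x := by revert x; decide

theorem zmod2_p4 (x : ZMod 2) : x ^ 4 = x := by revert x; decide

theorem symp_symm (n : ℕ) (u v : Fin n ⊕ Fin n → ZMod 2) :
    Cfsg.sympForm n (ZMod 2) v u = Cfsg.sympForm n (ZMod 2) u v := by
  rw [CfsgH7.sympForm_skew, ZMod.neg_eq_self_mod_two]

theorem symp_tv (n : ℕ) (v u : Fin n ⊕ Fin n → ZMod 2) :
    (1 + vecMulVec v (J (Fin n) (ZMod 2) *ᵥ v)) *ᵥ u = u + Cfsg.sympForm n (ZMod 2) u v • v := by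
  rw [add_mulVec, one_mulVec, vecMulVec_mulVec, dotProduct_comm, op_smul_eq_smul]
  rfl

theorem symp_add_left (n : ℕ) (u v w : Fin n ⊕ Fin n → ZMod 2) :
    Cfsg.sympForm n (ZMod 2) (u + v) w =
      Cfsg.sympForm n (ZMod 2) u w + Cfsg.sympForm n (ZMod 2) v w := add_dotProduct _ _ _

theorem symp_smul_left (n : ℕ) (c : ZMod 2) (u v : Fin n ⊕ Fin n → ZMod 2) :
    Cfsg.sympForm n (ZMod 2) (c • u) v = c * Cfsg.sympForm n (ZMod 2) u v := smul_dotProduct _ _ _

/-- `Sp(2n, 2)` -/
noncomputable def tvS (n : ℕ) :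
    TvG (ZMod 2) (Fin n ⊕ Fin n) (symplecticGroup (Fin n) (ZMod 2)) where
  p4 := zmod2_p4
  h := Cfsg.sympForm n (ZMod 2)
  add_left := symp_add_left n
  smul_left := symp_smul_left n
  symm u v := by rw [zmod2_sq, symp_symm]
  nondeg u h := funext fun i => by rw [← i.swap_swap, ← symp_single n u, h]; rfl
  mat := (symplecticGroup (Fin n) (ZMod 2)).subtype
  inj := Subtype.val_injective
  isom g := (CfsgH7.mem_Sp_iff_form _).1 g.2
  det g := by
    have : ∀ x : ZMod 2, x ≠ 0 → x = 1 := by decide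
    exact this _ (SymplecticGroup.symplectic_det g.2).ne_zero
  t v := ⟨1 + vecMulVec v (J (Fin n) (ZMod 2) *ᵥ v), (CfsgH7.mem_Sp_iff_form _).2 fun a b => by
    rw [symp_tv, symp_tv, symp_add_left, symp_smul_left, symp_symm n _ a, symp_symm n _ v,
      symp_add_left, symp_add_left, symp_smul_left, symp_smul_left, CfsgH7.sympForm_self,
      symp_symm n b a, symp_symm n v a]
    linear_combination Cfsg.sympForm n (ZMod 2) b v * Cfsg.sympForm n (ZMod 2) v a *
      f4_two zmod2_p4⟩
  ht v _ u := symp_tv n v u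

theorem tvS_h (n : ℕ) : (tvS n).h = Cfsg.sympForm n (ZMod 2) := rfl

theorem tvS_self (n : ℕ) (v : Fin n ⊕ Fin n → ZMod 2) : (tvS n).h v v = 0 := CfsgH7.sympForm_self v

theorem tvS_gen (n : ℕ) : Subgroup.closure (tvS n).D = ⊤ := by
  classical
  set T := tvS n
  have h01 : ∀ x : ZMod 2, x ≠ 0 → x = 1 := by decide
  have he : ∀ u (i : Fin n ⊕ Fin n), T.h u (Pi.single i 1) = u i.swap := symp_single n
  have hm : ∀ v, T.t v ∈ Subgroup.closure T.D := fun v => by
    by_cases h : v = 0
    · rw [h, T.t_zero]; exact one_mem _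
    · exact subset_closure ⟨v, h, tvS_self n v, rfl⟩
  have hmv : ∀ u v, T.h u v = 1 → T.mat (T.t (u + v)) *ᵥ u = v := fun u v h => by
    rw [T.ht _ (tvS_self n _), T.add_right, tvS_self, h, zero_add, one_smul, ← add_assoc,
      T.add_self, zero_add]
  have key : ∀ g, ∀ S : Finset (Fin n ⊕ Fin n), ∃ l ∈ Subgroup.closure T.D, ∀ i ∈ S,
      T.mat (l * g) *ᵥ Pi.single i 1 = Pi.single i 1 := by
    intro g S
    induction S using Finset.induction_on with
    | empty => exact ⟨1, one_mem _, by simp⟩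
    | insert j S hj ih =>
      obtain ⟨l, hl, h1⟩ := ih
      suffices h : ∃ m ∈ Subgroup.closure T.D, T.mat m *ᵥ (T.mat (l * g) *ᵥ Pi.single j 1) = Pi.single j 1 ∧
          ∀ i ∈ S, T.mat m *ᵥ Pi.single i 1 = Pi.single i 1 by
        obtain ⟨m, hm, m1, m2⟩ := h
        refine ⟨m * l, mul_mem hm hl, fun i hi => ?_⟩
        rw [mul_assoc, T.mul_act]
        rcases Finset.mem_insert.1 hi with rfl | hi
        · exact m1
        · rw [h1 i hi, m2 i hi]
      generalize l * g = k at h1
      have h2 : ∀ i ∈ S, T.h (Pi.single i 1) (T.mat k *ᵥ Pi.single j 1) =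
          T.h (Pi.single i 1) (Pi.single j 1) := fun i hi => by rw [← T.isom k _ (Pi.single j 1), h1 i hi]
      have h3 : ∀ w, (∀ i ∈ S, T.h (Pi.single i 1) w = 0) → ∀ i ∈ S,
          T.mat (T.t w) *ᵥ Pi.single i 1 = Pi.single i 1 := fun w h i hi => by
        rw [T.ht _ (tvS_self n _), h i hi, zero_smul, add_zero]
      obtain ⟨j', h4, h5⟩ : ∃ j' ∉ S, (T.mat k *ᵥ Pi.single j 1) j' ≠ 0 := by
        by_contra hn
        push Not at hn
        have h4 : T.mat k *ᵥ (T.mat k *ᵥ Pi.single j 1) = T.mat k *ᵥ Pi.single j 1 := by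
          generalize T.mat k *ᵥ Pi.single j 1 = v at hn
          rw [pi_eq_sum_univ' v, mulVec_sum]
          refine Finset.sum_congr rfl fun i _ => ?_
          by_cases hi : i ∈ S
          · rw [mulVec_smul, h1 i hi]
          · simp [hn i hi]
        have h5 := congrArg (T.mat k⁻¹ *ᵥ ·) h4
        simp only [← T.mul_act, inv_mul_cancel, inv_mul_cancel_left, map_one, one_mulVec] at h5
        simpa [h5] using hn j hj
      generalize T.mat k *ᵥ Pi.single j 1 = v at h2 h5
      have htwo : ∀ x : ZMod 2, x + x = 0 := by decide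
      by_cases h6 : T.h v (Pi.single j 1) = 0
      · obtain ⟨y, y1, y2, y3⟩ : ∃ y, T.h y (Pi.single j 1) = 1 ∧ T.h v y = 1 ∧
            ∀ i ∈ S, T.h (Pi.single i 1) y = 0 := by
          have h7 : ∀ j ∉ S, ∀ i ∈ S, T.h (Pi.single i 1) (Pi.single j.swap 1) = 0 :=
            fun j hj i hi => by
              rw [he, Sum.swap_swap, Pi.single_eq_of_ne fun h : j = i => hj (h ▸ hi)]
          by_cases h8 : v j = 0
          · have h9 : j' ≠ j := fun h => h5 (h ▸ h8)
            refine ⟨Pi.single j.swap 1 + Pi.single j'.swap 1, ?_, ?_, fun i hi => ?_⟩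
            · have : j.swap ≠ j'.swap := fun h => h9 (by rw [← j.swap_swap, h, Sum.swap_swap])
              simp [he, this]
            · rw [T.add_right, he, he, Sum.swap_swap, Sum.swap_swap, h8, h01 _ h5, zero_add]
            · rw [T.add_right, h7 j hj i hi, h7 j' h4 i hi, add_zero]
          · exact ⟨Pi.single j.swap 1, by simp [he], by rw [he, Sum.swap_swap, h01 _ h8], h7 j hj⟩
        refine ⟨T.t (Pi.single j 1 + y + Pi.single j 1) * T.t (v + (Pi.single j 1 + y)),
          mul_mem (hm _) (hm _), ?_, fun i hi => ?_⟩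
        · rw [T.mul_act, hmv _ _ (by rw [T.add_right, h6, y2, zero_add]), hmv _ _ (by
            rw [T.add_left, y1, tvS_self, zero_add])]
        · rw [T.mul_act, h3 _ (fun i hi => by
            rw [T.add_right, T.add_right, h2 i hi, y3 i hi, add_zero, htwo]) i hi, h3 _ (fun i hi => by
            rw [T.add_right, T.add_right, y3 i hi, add_zero, htwo]) i hi]
      · exact ⟨_, hm _, hmv _ _ (h01 _ h6), h3 _ fun i hi => by rw [T.add_right, h2 i hi, htwo]⟩
  rw [eq_top_iff]
  intro g _
  obtain ⟨l, hl, h1⟩ := key g Finset.univ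
  have h : l * g = 1 := T.inj (by
    ext i j
    have := congrFun (h1 j (Finset.mem_univ j)) i
    rw [mulVec_single_one, col_apply] at this
    rw [this, map_one, Pi.single_apply, one_apply])
  rw [eq_inv_of_mul_eq_one_right h]; exact inv_mem hl

theorem tvS_center (n : ℕ) : center (symplecticGroup (Fin n) (ZMod 2)) = ⊥ := by
  rw [eq_bot_iff]
  intro g hg
  refine (tvS n).ext fun u => ?_
  rw [map_one, one_mulVec]
  by_cases h : u = 0
  · rw [h, mulVec_zero]
  obtain ⟨c, hc, h1⟩ := (tvS n).t_inj (tvS_self n _) (tvS_self n u) ((tvS n).act_ne g h) (by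
    rw [← (tvS n).t_conj g (tvS_self n u), ← mem_center_iff.1 hg, mul_inv_cancel_right])
  have h01 : ∀ x : ZMod 2, x ≠ 0 → x = 1 := by decide
  rw [h1, h01 c hc, one_smul]

/-- adjoining a hyperbolic pair -/
def scons {n : ℕ} (a b : ZMod 2) (v : Fin n ⊕ Fin n → ZMod 2) : Fin (n + 1) ⊕ Fin (n + 1) → ZMod 2 :=
  Sum.elim (Fin.cons a fun i => v (.inl i)) (Fin.cons b fun i => v (.inr i))

theorem symp_scons {n : ℕ} (a b c d : ZMod 2) (u v : Fin n ⊕ Fin n → ZMod 2) :
    Cfsg.sympForm (n + 1) (ZMod 2) (scons a b u) (scons c d v) =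
      b * c + a * d + Cfsg.sympForm n (ZMod 2) u v := by
  simp [symp_eq, scons, Fin.sum_univ_succ]

theorem scons_add {n : ℕ} (a b c d : ZMod 2) (u v : Fin n ⊕ Fin n → ZMod 2) :
    scons a b u + scons c d v = scons (a + c) (b + d) (u + v) := by
  ext (i | i) <;> refine Fin.cases ?_ (fun i => ?_) i <;> simp [scons]

theorem scons_surj {n : ℕ} (u : Fin (n + 1) ⊕ Fin (n + 1) → ZMod 2) : ∃ a b v, u = scons a b v :=
  ⟨u (.inl 0), u (.inr 0), Sum.elim (fun i => u (.inl i.succ)) fun i => u (.inr i.succ), by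
    ext (i | i) <;> refine Fin.cases ?_ (fun i => ?_) i <;> simp [scons]⟩

theorem exists_gram_alt {M : Type*} [Fintype M] (g : M → M → ZMod 2) (hg : ∀ y z, g y z = g z y)
    (hg0 : ∀ y, g y y = 0) : ∃ (n : ℕ) (v : M → Fin n ⊕ Fin n → ZMod 2),
      (∀ z y, Cfsg.sympForm n (ZMod 2) (v z) (v y) = g z y) ∧
      AddSubmonoid.closure (Set.range v) = ⊤ := by
  classical
  induction h : (Finset.univ.filter fun z => g z ≠ 0).card using Nat.strong_induction_on
    generalizing g with
  | _ k ih =>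
  by_cases h0 : ∀ z y, g z y = 0
  · exact ⟨0, fun _ => 0, fun z y => by simp [symp_eq, h0], Subsingleton.elim _ _⟩
  push Not at h0
  obtain ⟨a, b, hab⟩ := h0
  have h01 : ∀ x : ZMod 2, x ≠ 0 → x = 1 := by decide
  have htwo : ∀ x : ZMod 2, x + x = 0 := by decide
  have h1 := h01 _ hab
  let g' : M → M → ZMod 2 := fun z y => g z y + (g z a * g b y + g z b * g a y)
  have ha : ∀ y, g' a y = 0 := fun y => by simp [g', hg0, h1, htwo]
  have hb : ∀ y, g' b y = 0 := fun y => by simp [g', hg0, hg b a, h1, htwo]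
  obtain ⟨n, v, h2, h3⟩ := ih _ (h ▸ Finset.card_lt_card (Finset.ssubset_iff_subset_ne.2
    ⟨fun z hz => by
      simp only [Finset.mem_filter, Finset.mem_univ, true_and] at hz ⊢
      exact fun h => hz (funext fun y => by simp [g', h]), fun h => by
      have : a ∈ Finset.univ.filter fun z => g z ≠ 0 := by
        simpa using fun h => hab (congrFun h b)
      rw [← h] at this
      exact (Finset.mem_filter.1 this).2 (funext ha)⟩)) g' (fun y z => by
      simp only [g', hg y z, hg y a, hg y b, hg z a, hg z b]; ring) (fun y => by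
      simp only [g', hg0, hg y a, hg y b, zero_add, mul_comm (g a y), htwo]) rfl
  have h4 : ∀ a, (∀ y, g' a y = 0) → v a = 0 := fun a ha => (tvS n).nondeg _ fun u => by
    have hu : u ∈ AddSubmonoid.closure (Set.range v) := h3 ▸ AddSubmonoid.mem_top u
    induction hu using AddSubmonoid.closure_induction with
    | mem u hu => obtain ⟨y, rfl⟩ := hu; exact (h2 a y).trans (ha y)
    | zero => exact TvG.zero_right _ _
    | add f f' _ _ h h' => rw [TvG.add_right, h, h', add_zero]
  refine ⟨n + 1, fun z => scons (g z b) (g z a) (v z), fun z y => ?_, ?_⟩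
  · rw [symp_scons, h2, hg y b, hg y a, add_comm, add_assoc, htwo, add_zero]
  set S := AddSubmonoid.closure (Set.range fun z => scons (g z b) (g z a) (v z))
  have h5 : scons 1 0 0 ∈ S := AddSubmonoid.subset_closure ⟨a, by simp [h1, hg0, h4 a ha]⟩
  have h6 : scons 0 1 0 ∈ S := AddSubmonoid.subset_closure ⟨b, by simp [hg b a, h1, hg0, h4 b hb]⟩
  have h7 : ∀ c d, scons c d 0 ∈ S := by
    have h7 : scons 0 0 0 ∈ S := by simpa [scons_add, htwo] using add_mem h5 h5
    have h8 : scons 1 1 0 ∈ S := by simpa [scons_add] using add_mem h5 h6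
    have h9 : ∀ x : ZMod 2, x = 0 ∨ x = 1 := by decide
    intro c d
    rcases h9 c with rfl | rfl <;> rcases h9 d with rfl | rfl <;> assumption
  rw [eq_top_iff]
  intro u _
  obtain ⟨c, d, u, rfl⟩ := scons_surj u
  have hu : u ∈ AddSubmonoid.closure (Set.range v) := h3 ▸ AddSubmonoid.mem_top u
  induction hu using AddSubmonoid.closure_induction generalizing c d with
  | mem u hu =>
    obtain ⟨y, rfl⟩ := hu
    simpa [scons_add] using add_mem (h7 (c - g y b) (d - g y a))
      (AddSubmonoid.subset_closure ⟨y, rfl⟩)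
  | zero => exact h7 c d
  | add f f' _ _ h h' => simpa [scons_add] using add_mem (h c d trivial) (h' 0 0 trivial)

end CfsgH4
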