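import Cfsg.Agent.H4.TvG

/-! The special unitary group over the field with four elements. -/

set_option autoImplicit false

namespace CfsgH4

open Subgroup Matrix

variable {F : Type*} [Field F]

theorem herm_add_left (n : ℕ) (u v w : Fin n → F) :
    Cfsg.hermForm n F 2 (u + v) w = Cfsg.hermForm n F 2 u w + Cfsg.hermForm n F 2 v w := by
  simp [Cfsg.hermForm, add_mul, Finset.sum_add_distrib]

theorem herm_smul_left (n : ℕ) (c : F) (u v : Fin n → F) :
    Cfsg.hermForm n F 2 (c • u) v = c * Cfsg.hermForm n F 2 u v := by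
  simp [Cfsg.hermForm, Finset.mul_sum, mul_assoc]

theorem f4_sum_sq (p4 : ∀ x : F, x ^ 4 = x) {ι : Type*} (s : Finset ι) (f : ι → F) :
    (∑ i ∈ s, f i) ^ 2 = ∑ i ∈ s, f i ^ 2 := by
  haveI : CharP F 2 := CharTwo.of_one_ne_zero_of_two_eq_zero one_ne_zero (f4_two p4)
  exact CharTwo.sum_sq s f

theorem herm_symm (p4 : ∀ x : F, x ^ 4 = x) (n : ℕ) (u v : Fin n → F) :
    Cfsg.hermForm n F 2 v u = Cfsg.hermForm n F 2 u v ^ 2 := by
  rw [Cfsg.hermForm, Cfsg.hermForm, f4_sum_sq p4]
  exact Finset.sum_congr rfl fun i _ => by linear_combination -(u i) ^ 2 * p4 (v i)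

theorem herm_single (n : ℕ) (u : Fin n → F) (i : Fin n) :
    Cfsg.hermForm n F 2 u (Pi.single i 1) = u i := by
  rw [Cfsg.hermForm, Finset.sum_eq_single i]
  · simp
  · intro j _ hj; simp [hj]
  · simp

theorem tvMat_mulVec (n : ℕ) (v u : Fin n → F) :
    (1 + vecMulVec v fun i => v i ^ 2) *ᵥ u = u + Cfsg.hermForm n F 2 u v • v := by
  rw [add_mulVec, one_mulVec, vecMulVec_mulVec, dotProduct_comm, op_smul_eq_smul]
  rfl

open Classical in
/-- `SU(n, 2)` -/
noncomputable def tvU (p4 : ∀ x : F, x ^ 4 = x) (n : ℕ) : TvG F (Fin n) (Cfsg.SU n F 2) where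
  p4 := p4
  h := Cfsg.hermForm n F 2
  add_left := herm_add_left n
  smul_left := herm_smul_left n
  symm := herm_symm p4 n
  nondeg u h := funext fun i => by rw [← herm_single n u i, h]; rfl
  mat := (Cfsg.slToMat n F).comp (Cfsg.SU n F 2).subtype
  inj _ _ h := Subtype.ext (Subtype.ext h)
  isom g := g.2
  det g := g.1.2
  t v := if h : Cfsg.hermForm n F 2 v v = 0 then ⟨⟨1 + vecMulVec v fun i => v i ^ 2, by
      rw [vecMulVec_eq Unit, det_one_add_replicateCol_mul_replicateRow, add_eq_left, dotProduct_comm]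
      exact h⟩, fun a b => by
      change Cfsg.hermForm n F 2 ((1 + vecMulVec v fun i => v i ^ 2) *ᵥ a)
        ((1 + vecMulVec v fun i => v i ^ 2) *ᵥ b) = _
      rw [tvMat_mulVec, tvMat_mulVec, herm_add_left, herm_smul_left, herm_symm p4 n _ a,
        herm_symm p4 n _ v, herm_add_left, herm_add_left, herm_smul_left, herm_smul_left, h,
        herm_symm p4 n b a, herm_symm p4 n v a]
      linear_combination (Cfsg.hermForm n F 2 b a * Cfsg.hermForm n F 2 b v *
        Cfsg.hermForm n F 2 v a + Cfsg.hermForm n F 2 b v ^ 2 * Cfsg.hermForm n F 2 v a ^ 2) *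
          f4_two p4⟩ else 1
  ht v h u := by
    rw [dif_pos h]
    exact tvMat_mulVec n v u

theorem tvU_h (p4 : ∀ x : F, x ^ 4 = x) (n : ℕ) : (tvU p4 n).h = Cfsg.hermForm n F 2 := rfl

namespace TvG

variable {ι K : Type*} [Fintype ι] [DecidableEq ι] [Group K] (T : TvG F ι K)

theorem exists_unit {w : F} (hw : w ^ 2 + w + 1 = 0) (U : Submodule F (ι → F)) {a b : ι → F}
    (ha : a ∈ U) (hb : b ∈ U) (h : T.h a b ≠ 0) : ∃ y ∈ U, T.h y y = 1 := by
  rcases T.self_cases a with h1 | h1
  swap; · exact ⟨a, ha, h1⟩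
  rcases T.self_cases b with h2 | h2
  swap; · exact ⟨b, hb, h2⟩
  refine ⟨(w / T.h a b) • a + b, add_mem (U.smul_mem _ ha) hb, ?_⟩
  rw [T.add_left, T.add_right, T.add_right, T.smul_left, T.smul_right, T.smul_left, T.smul_right,
    h1, h2, T.symm a b, ← mul_pow, div_mul_cancel₀ _ h]
  linear_combination hw - T.two

/-- the orthogonal complement of two vectors -/
def perp2 (u v : ι → F) : Submodule F (ι → F) where
  carrier := {y | T.h y u = 0 ∧ T.h y v = 0}
  add_mem' ha hb := ⟨by rw [T.add_left, ha.1, hb.1, add_zero], by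
    rw [T.add_left, ha.2, hb.2, add_zero]⟩
  zero_mem' := ⟨T.zero_left _, T.zero_left _⟩
  smul_mem' c _ ha := ⟨by rw [T.smul_left, ha.1, mul_zero], by rw [T.smul_left, ha.2, mul_zero]⟩

theorem proj_hyp {u v : ι → F} (hu : T.h u u = 0) (hv : T.h v v = 0) (h : T.h u v = 1)
    (y : ι → F) : y + T.h y v • u + T.h y u • v ∈ T.perp2 u v := by
  have h' : T.h v u = 1 := by rw [T.symm, h, one_pow]
  constructor <;> simp only [T.add_left, T.smul_left, hu, hv, h, h']
  · linear_combination T.h y u * T.two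
  · linear_combination T.h y v * T.two

theorem double_perp {w : F} (hw : w ^ 2 + w + 1 = 0) {u v z y₀ : ι → F} (hu : T.h u u = 0)
    (hv : T.h v v = 0) (h : T.h u v = 1) (hy : y₀ ∈ T.perp2 u v) (hy0 : y₀ ≠ 0)
    (hy1 : T.h y₀ y₀ = 0) (hz : ∀ y ∈ T.perp2 u v, T.h y y = 0 → T.h y z = 0) :
    z = T.h z v • u + T.h z u • v := by
  have h1 := T.proj_hyp hu hv h z
  have h2 : ∀ y ∈ T.perp2 u v, T.h y y = 0 → T.h y (z + T.h z v • u + T.h z u • v) = 0 :=
    fun y hy h2 => by
      rw [T.add_right, T.add_right, T.smul_right, T.smul_right, hz y hy h2, hy.1, hy.2]; simp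
  have h3 : ∀ a ∈ T.perp2 u v, a ≠ 0 → ∃ y ∈ T.perp2 u v, T.h y a = 1 := fun a ha a0 => by
    obtain ⟨y, hy⟩ := T.exists_h_one a0
    refine ⟨_, T.proj_hyp hu hv h y, ?_⟩
    rw [T.add_left, T.add_left, T.smul_left, T.smul_left, hy, T.perp ha.1, T.perp ha.2]; simp
  rw [← add_right_inj (T.h z v • u + T.h z u • v), T.add_self, add_comm, ← add_assoc]
  generalize z + T.h z v • u + T.h z u • v = a at h1 h2
  by_contra a0
  rcases T.self_cases a with h4 | h4
  · obtain ⟨y, hy, h5⟩ := h3 a h1 a0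
    obtain ⟨c, hc⟩ := T.exists_iso (Or.inr ⟨w, hw⟩) y h4 fun h => by simp [T.perp h] at h5
    have := h2 _ (add_mem hy (Submodule.smul_mem _ c h1)) hc
    rw [T.add_left, T.smul_left, h4, h5] at this
    simp at this
  · obtain ⟨y, hy2, h5⟩ := h3 y₀ hy hy0
    have h6 := h2 y₀ hy hy1
    obtain ⟨b, ⟨hb, b1⟩, b2⟩ := T.exists_unit hw (T.perp2 u v ⊓ T.perp2 a a)
      (a := y + T.h y a • a) (b := y₀) ⟨add_mem hy2 (Submodule.smul_mem _ _ h1), by
        constructor <;> rw [T.add_left, T.smul_left, h4] <;> linear_combination T.h y a * T.two⟩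
      ⟨hy, h6, h6⟩ (by rw [T.add_left, T.smul_left, h5, T.perp h6]; simp)
    have := h2 _ (add_mem hb h1) (by
      rw [T.add_left, T.add_right, T.add_right, b2, h4, b1.1, T.perp b1.1]
      linear_combination T.two)
    rw [T.add_left, b1.1, h4] at this
    simp at this

theorem iso_unitary {w : F} (hw : w ^ 2 + w + 1 = 0) {G : Type*} [Group G] [Finite G] {D : Set G}
    (Φ : Fis D) (hZ : center G = ⊥) (hgen : closure T.D = ⊤) (φ : G → ι → F)
    (h1 : ∀ a ∈ D, ∀ b ∈ D, Commute a b ↔ T.h (φ a) (φ b) = 0)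
    (h2 : ∀ u, u ≠ 0 → T.h u u = 0 → ∃ d ∈ D, ∃ c : F, u = c • φ d) :
    Nonempty (G ≃* K ⧸ center K) := by
  refine T.iso_quot Φ hZ hgen φ h1 h2 fun a ha b hb => ?_
  have hi : ∀ a ∈ D, T.h (φ a) (φ a) = 0 := fun a ha => (h1 a ha a ha).1 (Commute.refl a)
  by_cases h : Commute a b
  · rw [conj_eq_of_commute h, conj_eq_of_commute (T.t_commute (hi a ha) (hi b hb)
      (T.perp ((h1 a ha b hb).1 h)))]
  have hc := Φ.conj a b hb
  have h3 : T.h (φ b) (φ a) ≠ 0 := fun h3 => h ((h1 b hb a ha).2 h3).symm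
  obtain ⟨_, ⟨g, hg, rfl⟩, e, he, e1, e2⟩ := Φ.exists_HR_common ha hb h
  obtain ⟨e, rfl⟩ : ∃ e', g * e' * g⁻¹ = e := ⟨g⁻¹ * e * g, by group⟩
  rw [commute_conj_iff] at e2
  rw [commute_conj_right (commute_of_mem_perp hg)] at e1
  replace he : e ∈ D := by simpa [mul_assoc] using Φ.conj g⁻¹ _ he
  have hu : T.h (T.h (φ b) (φ a) • φ a) (T.h (φ b) (φ a) • φ a) = 0 := by
    rw [T.smul_left, T.smul_right, hi a ha]; simp
  have h4 := T.double_perp hw (z := φ (a * b * a⁻¹)) (y₀ := φ e) hu (hi b hb) (by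
      rw [T.smul_left, T.symm (φ b) (φ a), f4_cube T.p4 h3])
    ⟨by rw [T.smul_right, (h1 e he a ha).1 e1.symm, mul_zero], (h1 e he b hb).1 e2.symm⟩
    (fun h4 => by
      obtain ⟨b, hb, h5⟩ := Φ.exn' he
      exact h5 ((h1 e he b hb).2 (by rw [h4, T.zero_left]))) (hi e he) fun y hy h4 => by
      by_cases y0 : y = 0
      · rw [y0, T.zero_left]
      obtain ⟨d, hd, c, rfl⟩ := h2 y y0 h4
      have c0 := left_ne_zero_of_smul y0
      obtain ⟨h5, h6⟩ := hy
      rw [T.smul_left, T.smul_right, mul_eq_zero, mul_eq_zero, pow_eq_zero_iff two_ne_zero,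
        or_iff_right c0, or_iff_right h3, ← h1 d hd a ha] at h5
      rw [T.smul_left, mul_eq_zero, or_iff_right c0, ← h1 d hd b hb] at h6
      rw [T.smul_left, (h1 d hd _ hc).1 ((h5.mul_right h6).mul_right h5.inv_right), mul_zero]
  have h5 : T.h (φ (a * b * a⁻¹)) (φ b) ≠ 0 := fun h5 => h (by
    have := (h1 _ hc b hb).2 h5
    rw [Φ.inv ha, Φ.braid ha hb h, Φ.cj_left hb (Commute.refl b)] at this
    exact this)
  have h6 : T.h (φ (a * b * a⁻¹)) (T.h (φ b) (φ a) • φ a) ≠ 0 := fun h6 => h (by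
    rw [T.smul_right, mul_eq_zero, pow_eq_zero_iff two_ne_zero, or_iff_right h3, ← h1 _ hc a ha,
      commute_conj_left (Commute.refl a)] at h6
    exact h6.symm)
  have h7 := hi _ hc
  have h8 : T.h (T.h (φ b) (φ a) • φ a) (φ b) = 1 := by
    rw [T.smul_left, T.symm (φ b) (φ a), f4_cube T.p4 h3]
  rw [T.t_conj _ (hi b hb), T.ht _ (hi a ha)]
  generalize T.h (φ b) (φ a) • φ a = u at *
  generalize T.h (φ (a * b * a⁻¹)) (φ b) = α at *
  generalize T.h (φ (a * b * a⁻¹)) u = β at *
  have h9 : T.h (φ b) u = 1 := by rw [T.symm, h8, one_pow]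
  rw [h4, T.add_left, T.add_right, T.add_right] at h7
  simp only [T.smul_left, T.smul_right, hu, hi b hb, h8, h9] at h7
  have h10 : α = β := by
    have := f4_cube T.p4 h5
    have := f4_cube T.p4 h6
    have h11 : α * β * (α + β) = 0 := by linear_combination h7
    have h12 := (mul_eq_zero.1 h11).resolve_left (mul_ne_zero h5 h6)
    linear_combination h12 - β * T.two
  rw [h4, h10, ← smul_add, T.t_smul h6 (by
    rw [T.add_left, T.add_right, T.add_right, hu, hi b hb, h8, h9]; linear_combination T.two),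
    add_comm]

theorem move_perp {u v : ι → F} (hu : T.h u u = 1) (hv : T.h v v = 1) (h : T.h u v = 0) :
    ∃ k ∈ closure T.D, T.mat k *ᵥ u = v ∧ ∀ z, T.h z u = 0 → T.h z v = 0 → T.mat k *ᵥ z = z := by
  have h1 : T.h (u + v) (u + v) = 0 := by
    rw [T.add_left, T.add_right, T.add_right, hu, hv, h, T.perp h]; linear_combination T.two
  refine ⟨_, subset_closure ⟨u + v, fun h2 => ?_, h1, rfl⟩, ?_, fun z z1 z2 => ?_⟩
  · have := congrArg (T.h u) h2
    rw [T.add_right, hu, h, T.zero_right] at this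
    simp at this
  · rw [T.ht _ h1, T.add_right, hu, h, add_zero, one_smul, ← add_assoc, T.add_self, zero_add]
  · rw [T.ht _ h1, T.add_right, z1, z2, add_zero, zero_smul, add_zero]

theorem t_mem {v : ι → F} (hv : T.h v v = 0) : T.t v ∈ closure T.D := by
  by_cases h : v = 0
  · rw [h, T.t_zero]; exact one_mem _
  · exact subset_closure ⟨v, h, hv, rfl⟩

theorem move_eich {w : F} (hw : w ^ 2 + w + 1 = 0) {u r e : ι → F} (hu : T.h u u = 1)
    (hr : T.h r r = 0) (he : T.h e e = 1) (h1 : T.h u r = 0) (h2 : T.h e r = 0) (h3 : T.h e u = 0) :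
    ∃ k ∈ closure T.D, ∀ z, T.h z r = 0 → T.mat k *ᵥ z = z + T.h z u • r := by
  have key : ∀ a, T.h a a = 0 → T.h a r = 0 →
      ∃ k ∈ closure T.D, ∀ z, T.h z r = 0 → T.mat k *ᵥ z = z + T.h z a • r := by
    intro a a1 a2
    have a3 : T.h (a + r) (a + r) = 0 := by
      rw [T.add_left, T.add_right, T.add_right, a1, a2, hr, T.perp a2]; simp
    refine ⟨_, mul_mem (T.t_mem a1) (T.t_mem a3), fun z hz => ?_⟩
    rw [T.mul_act, T.ht _ a1, T.ht _ a3, T.add_right, hz, add_zero, T.add_left, T.smul_left,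
      T.add_left, a1, T.perp a2, add_zero, mul_zero, add_zero, smul_add, add_assoc, add_right_comm,
      T.add_self, zero_add]
  have hw0 : w ≠ 0 := fun h => by simp [h] at hw
  have key2 : ∀ c : F, c ≠ 0 → T.h (e + c • u) (e + c • u) = 0 := fun c hc => by
    rw [T.add_left, T.add_right, T.add_right, T.smul_left, T.smul_right, T.smul_left, T.smul_right,
      he, hu, h3, T.perp h3]
    linear_combination f4_cube T.p4 hc + T.two
  obtain ⟨k, hk, k1⟩ := key _ (key2 w hw0) (by rw [T.add_left, T.smul_left, h1, h2]; simp)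
  obtain ⟨l, hl, l1⟩ := key _ (key2 _ (pow_ne_zero 2 hw0)) (by
    rw [T.add_left, T.smul_left, h1, h2]; simp)
  refine ⟨_, mul_mem hk hl, fun z hz => ?_⟩
  rw [T.mul_act, l1 z hz, mulVec_add, mulVec_smul, k1 z hz, k1 r hr, T.add_right r, T.smul_right,
    T.perp h1, T.perp h2, mul_zero, add_zero, zero_smul, add_zero, add_assoc, ← add_smul,
    T.add_right, T.add_right, T.smul_right, T.smul_right]
  congr 2
  linear_combination (T.h z e - T.h z u) * T.two + T.h z u * (T.p4 w + hw)

theorem exists_unit_perp {w : F} (hw : w ^ 2 + w + 1 = 0) (hn : 4 ≤ Fintype.card ι)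
    {u r : ι → F} (hu : T.h u u = 1) (hr : T.h r r = 0) (h1 : T.h u r = 0) (r0 : r ≠ 0) :
    ∃ e, T.h e e = 1 ∧ T.h e r = 0 ∧ T.h e u = 0 := by
  obtain ⟨s, hs⟩ := T.exists_h_one r0
  let φ : (ι → F) →ₗ[F] (Fin 3 → F) :=
    { toFun := fun y => ![T.h y u, T.h y r, T.h y s]
      map_add' := fun a b => by ext i; fin_cases i <;> simp [T.add_left]
      map_smul' := fun a b => by ext i; fin_cases i <;> simp [T.smul_left] }
  obtain ⟨a, ha, a0⟩ := (Submodule.ne_bot_iff _).1 (LinearMap.ker_ne_bot_of_finrank_lt (f := φ)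
    (by simp; omega))
  have a1 : T.h a u = 0 := congrFun ha 0
  have a2 : T.h a r = 0 := congrFun ha 1
  have a3 : T.h a s = 0 := congrFun ha 2
  obtain ⟨y, hy⟩ := T.exists_h_one a0
  obtain ⟨e, he, e1⟩ := T.exists_unit hw (T.perp2 u r) (b := a)
    (a := y + T.h y r • s + T.h (y + T.h y r • s) u • u) ⟨by
      rw [T.add_left _ (_ • u), T.smul_left, hu]
      linear_combination T.h (y + T.h y r • s) u * T.two, by
      rw [T.add_left, T.add_left, T.smul_left, T.smul_left, hs, h1]
      linear_combination T.h y r * T.two⟩ ⟨a1, a2⟩ (by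
    rw [T.add_left, T.add_left, T.smul_left, T.smul_left, hy, T.perp a1, T.perp a3]; simp)
  exact ⟨e, e1, he.2, he.1⟩

theorem move {w : F} (hw : w ^ 2 + w + 1 = 0) (hn : 4 ≤ Fintype.card ι) {u u' v : ι → F}
    (hu : T.h u u = 1) (hu' : T.h u' u' = 1) (hv : T.h v v = 1) (h : T.h u u' = 0) :
    ∃ k ∈ closure T.D, T.mat k *ᵥ u = v ∧
      ∀ z, T.h z u = 0 → T.h z u' = 0 → T.h z v = 0 → T.mat k *ᵥ z = z := by
  by_cases h1 : T.h v u = 0
  · obtain ⟨k, hk, k1, k2⟩ := T.move_perp hu hv (T.perp h1)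
    exact ⟨k, hk, k1, fun z z1 _ z3 => k2 z z1 z3⟩
  have h2 : T.h (T.h v u • u) (T.h v u • u) = 1 := by
    rw [T.smul_left, T.smul_right, hu, mul_one, f4_cube T.p4 h1]
  obtain ⟨k, hk, k1, k2⟩ := T.move_perp hu hu' h
  obtain ⟨l, hl, l1, l2⟩ := T.move_perp hu' h2 (by rw [T.smul_right, T.perp h, mul_zero])
  have h3 : T.h (T.h v u • u) v = 1 := by rw [T.smul_left, T.symm v u, f4_cube T.p4 h1]
  have h4 : ∀ z, T.h z u = 0 → T.h z (T.h v u • u) = 0 := fun z hz => by
    rw [T.smul_right, hz, mul_zero]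
  generalize T.h v u • u = a at *
  by_cases h5 : v + a = 0
  · refine ⟨_, mul_mem hl hk, ?_, fun z z1 z2 _ => ?_⟩
    · rw [T.mul_act, k1, l1, ← add_right_inj v, h5, T.add_self]
    · rw [T.mul_act, k2 z z1 z2, l2 z z2 (h4 z z1)]
  have h6 : T.h a (v + a) = 0 := by rw [T.add_right, h2, h3]; linear_combination T.two
  have h7 : T.h (v + a) (v + a) = 0 := by
    rw [T.add_left, h6, T.add_right, hv, T.symm a v, h3]; linear_combination T.two
  obtain ⟨e, e1, e2, e3⟩ := T.exists_unit_perp hw hn h2 h7 h6 h5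
  obtain ⟨m, hm, m1⟩ := T.move_eich hw h2 h7 e1 h6 e2 e3
  refine ⟨_, mul_mem hm (mul_mem hl hk), ?_, fun z z1 z2 z3 => ?_⟩
  · rw [T.mul_act, T.mul_act, k1, l1, m1 a h6, h2, one_smul, add_left_comm, T.add_self, add_zero]
  · rw [T.mul_act, T.mul_act, k2 z z1 z2, l2 z z2 (h4 z z1), m1 z (by
      rw [T.add_right, z3, h4 z z1, add_zero]), h4 z z1, zero_smul, add_zero]

end TvG

theorem tvU_gen (p4 : ∀ x : F, x ^ 4 = x) {w : F} (hw : w ^ 2 + w + 1 = 0) {n : ℕ} (hn : 4 ≤ n) :
    closure (tvU p4 n).D = ⊤ := by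
  set T := tvU p4 n
  have he : ∀ u (i : Fin n), T.h u (Pi.single i 1) = u i := herm_single n
  have key : ∀ g, ∀ k < n, ∃ l ∈ closure T.D, ∀ i : Fin n, i.1 < k →
      T.mat (l * g) *ᵥ Pi.single i 1 = Pi.single i 1 := by
    intro g k
    induction k with
    | zero => exact fun _ => ⟨1, one_mem _, by simp⟩
    | succ k ih =>
      intro hk
      obtain ⟨l, hl, h1⟩ := ih (by omega)
      obtain ⟨m, hm, m1, m2⟩ := T.move hw (by simpa using hn) (u := Pi.single ⟨k, by omega⟩ 1)
        (u' := Pi.single ⟨k + 1, hk⟩ 1) (v := T.mat (l * g) *ᵥ Pi.single ⟨k, by omega⟩ 1)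
        (by simp [he]) (by simp [he]) (by rw [T.isom]; simp [he]) (by simp [he])
      refine ⟨m⁻¹ * l, mul_mem (inv_mem hm) hl, fun i hi => ?_⟩
      rw [mul_assoc, T.mul_act]
      rcases Nat.lt_succ_iff_lt_or_eq.1 hi with h2 | h2
      · have h3 : (⟨k, by omega⟩ : Fin n) ≠ i := fun h => by simp [← h] at h2
        have h4 : (⟨k + 1, hk⟩ : Fin n) ≠ i := fun h => by simp [← h] at h2
        rw [h1 i h2, ← m2 (Pi.single i 1) (by simp [he, h3]) (by simp [he, h4]) (by
          rw [← h1 i h2, T.isom]; simp [he, h3]), ← T.mul_act, inv_mul_cancel, map_one, one_mulVec,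
          m2 (Pi.single i 1) (by simp [he, h3]) (by simp [he, h4]) (by
          rw [← h1 i h2, T.isom]; simp [he, h3])]
      · rw [show i = ⟨k, Nat.lt_of_succ_lt hk⟩ from Fin.ext h2, ← m1, ← T.mul_act, inv_mul_cancel, map_one, one_mulVec]
  rw [eq_top_iff]
  intro g _
  obtain ⟨n, rfl⟩ : ∃ m, n = m + 1 := ⟨n - 1, by omega⟩
  obtain ⟨l, hl, h1⟩ := key g n (by omega)
  suffices h : l * g = 1 by rw [eq_inv_of_mul_eq_one_right h]; exact inv_mem hl
  generalize l * g = k at h1
  have h2 : T.mat k = diagonal (Function.update 1 (Fin.last n) (T.mat k (Fin.last n) (Fin.last n))) := by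
    ext i j
    by_cases hj : j = Fin.last n
    · subst hj
      by_cases hi : i = Fin.last n
      · subst hi; simp
      · have := T.isom k (Pi.single (Fin.last n) 1) (Pi.single i 1)
        rw [h1 i (Fin.val_lt_last hi), he, he] at this
        simpa [hi] using this
    · have := congrFun (h1 j (Fin.val_lt_last hj)) i
      rw [mulVec_single_one, col_apply] at this
      rw [this, diagonal_apply, Pi.single_apply]
      split_ifs with h
      · subst h; simp [hj]
      · rfl
  have h3 := T.det k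
  rw [h2, det_diagonal, Finset.prod_update_of_mem (Finset.mem_univ _)] at h3
  simp only [Pi.one_apply, Finset.prod_const_one, mul_one] at h3
  apply T.inj
  rw [h2, h3, map_one]
  simp

theorem exists_gram (p4 : ∀ x : F, x ^ 4 = x) {w : F} (hw : w ^ 2 + w + 1 = 0) {M : Type*}
    [Fintype M] (g : M → M → F) (hg : ∀ y z, g y z = g z y ^ 2) :
    ∃ (m : ℕ) (v : M → Fin m → F), (∀ z y, Cfsg.hermForm m F 2 (v z) (v y) = g z y) ∧
      Submodule.span F (Set.range v) = ⊤ := by
  classical
  induction h : Module.finrank F (Submodule.span F (Set.range g)) using Nat.strong_induction_on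
    generalizing g with
  | _ k ih =>
  by_cases h0 : ∀ z y, g z y = 0
  · exact ⟨0, fun _ => 0, fun z y => by simp [Cfsg.hermForm, h0], Subsingleton.elim _ _⟩
  obtain ⟨a, ha⟩ : ∃ a : M → F, ∑ y, (∑ z, a z * g z y) * a y ^ 2 = 1 := by
    push Not at h0
    by_cases h1 : ∃ y, g y y ≠ 0
    · obtain ⟨y, h1⟩ := h1
      refine ⟨Pi.single y 1, ?_⟩
      simp only [Pi.single_apply, ite_mul, one_mul, zero_mul, Finset.sum_ite_eq', Finset.mem_univ,
        if_true, ite_pow, one_pow, ne_eq, OfNat.ofNat_ne_zero, not_false_eq_true, zero_pow, mul_ite,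
        mul_one, mul_zero]
      exact mul_left_cancel₀ h1 (by linear_combination -hg y y)
    · push Not at h1
      obtain ⟨z, y, h2⟩ := h0
      have h3 : z ≠ y := fun h => h2 (h ▸ h1 z)
      refine ⟨Pi.single z (w / g z y) + Pi.single y 1, ?_⟩
      rw [Finset.sum_eq_add_of_mem z y (Finset.mem_univ _) (Finset.mem_univ _) h3
        fun c _ hc => by simp [hc.1, hc.2]]
      simp only [Pi.add_apply, add_mul, Finset.sum_add_distrib, Pi.single_apply, ite_mul, zero_mul,
        Finset.sum_ite_eq', Finset.mem_univ, if_true, h1, h3, h3.symm, if_false, hg y z]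
      rw [div_mul_cancel₀ _ h2]
      have : (g z y ^ 2) * (w / g z y) ^ 2 = w ^ 2 := by field_simp
      linear_combination this + hw - f4_two p4
  let r : M → F := fun z => ∑ y, g z y * a y ^ 2
  have hr : ∀ y, ∑ z, a z * g z y = r y ^ 2 := fun y => by
    rw [f4_sum_sq p4]
    exact Finset.sum_congr rfl fun z _ => by
      rw [hg z y]; linear_combination -(g y z) ^ 2 * p4 (a z)
  have har : ∑ z, a z * r z = 1 := by
    rw [← ha]
    simp only [r, Finset.mul_sum, Finset.sum_mul]
    rw [Finset.sum_comm]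
    simp only [mul_assoc]
  have har' : ∑ z, r z ^ 2 * a z ^ 2 = 1 := by
    rw [← one_pow 2, ← har, f4_sum_sq p4]
    exact Finset.sum_congr rfl fun z _ => by ring
  let g' : M → M → F := fun z y => g z y + r z * r y ^ 2
  have hg' : ∀ y, ∑ z, a z * g' z y = 0 := fun y => by
    simp only [g', mul_add, Finset.sum_add_distrib, hr, ← mul_assoc, ← Finset.sum_mul, har]
    linear_combination r y ^ 2 * f4_two p4
  have hm : (fun y => r y ^ 2) ∈ Submodule.span F (Set.range g) := by
    have : (fun y => r y ^ 2) = ∑ z, a z • g z := by ext y; simp [hr]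
    rw [this]
    exact sum_mem fun z _ => Submodule.smul_mem _ _ (Submodule.subset_span ⟨z, rfl⟩)
  obtain ⟨m, v, h1, h2⟩ := ih _ (h ▸ Submodule.finrank_lt_finrank_of_lt (lt_of_le_of_ne
    (Submodule.span_le.2 (by
      rintro _ ⟨z, rfl⟩
      exact add_mem (Submodule.subset_span ⟨z, rfl⟩) (Submodule.smul_mem _ (r z) hm)))
    fun h3 => by
      rw [← h3] at hm
      have h4 : ∀ f ∈ Submodule.span F (Set.range g'), ∑ y, f y * a y ^ 2 = 0 := by
        intro f hf
        induction hf using Submodule.span_induction with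
        | mem f hf =>
          obtain ⟨z, rfl⟩ := hf
          simp only [g', add_mul, Finset.sum_add_distrib, mul_assoc, ← Finset.mul_sum, har']
          linear_combination r z * f4_two p4
        | zero => simp
        | add f f' _ _ h h' => simp [add_mul, Finset.sum_add_distrib, h, h']
        | smul c f _ h => simp [mul_assoc, ← Finset.mul_sum, h]
      exact one_ne_zero (har'.symm.trans (h4 _ hm)))) g' (fun y z => by
      simp only [g', hg y z]
      linear_combination -r z ^ 2 * p4 (r y) - g z y * r z * r y ^ 2 * f4_two p4) rfl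
  refine ⟨m + 1, fun z => Fin.cons (r z) (v z), fun z y => ?_, ?_⟩
  · have := h1 z y
    simp only [Cfsg.hermForm, Fin.sum_univ_succ, Fin.cons_zero, Fin.cons_succ, g'] at this ⊢
    rw [this]
    linear_combination r z * r y ^ 2 * f4_two p4
  · have h3 : ∑ z, a z • v z = 0 := (tvU p4 m).nondeg _ fun u => by
      have hu : u ∈ Submodule.span F (Set.range v) := h2 ▸ Submodule.mem_top
      induction hu using Submodule.span_induction with
      | mem u hu =>
        obtain ⟨y, rfl⟩ := hu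
        rw [← hg' y]
        simp only [← h1, tvU_h, Cfsg.hermForm, Finset.sum_apply, Finset.sum_mul, Finset.mul_sum,
          Pi.smul_apply, smul_eq_mul, mul_assoc]
        exact Finset.sum_comm
      | zero => exact TvG.zero_right _ _
      | add f f' _ _ h h' => rw [TvG.add_right, h, h', add_zero]
      | smul c f _ h => rw [TvG.smul_right, h, mul_zero]
    set S := Submodule.span F (Set.range fun z => (Fin.cons (r z) (v z) : Fin (m + 1) → F))
    have h4 : (Fin.cons 1 0 : Fin (m + 1) → F) ∈ S := by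
      have : (Fin.cons 1 0 : Fin (m + 1) → F) = ∑ z, a z • Fin.cons (r z) (v z) := by
        ext i
        refine Fin.cases ?_ (fun i => ?_) i
        · simp [har]
        · simpa using (congrFun h3 i).symm
      rw [this]
      exact sum_mem fun z _ => S.smul_mem _ (Submodule.subset_span ⟨z, rfl⟩)
    have h5 : ∀ u, ∀ c, (Fin.cons c u : Fin (m + 1) → F) ∈ S := by
      intro u
      have hu : u ∈ Submodule.span F (Set.range v) := h2 ▸ Submodule.mem_top
      have h6 : ∀ u c c', (Fin.cons c u : Fin (m + 1) → F) ∈ S →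
          (Fin.cons c' u : Fin (m + 1) → F) ∈ S := fun u c c' h => by
        convert add_mem h (S.smul_mem (c' - c) h4) using 1
        ext i; refine Fin.cases ?_ (fun i => ?_) i <;> simp
      induction hu using Submodule.span_induction with
      | mem u hu => obtain ⟨y, rfl⟩ := hu; exact fun c => h6 _ _ c (Submodule.subset_span ⟨y, rfl⟩)
      | zero => exact fun c => h6 _ _ c h4
      | add f f' _ _ h h' =>
        intro c
        convert add_mem (h c) (h' 0) using 1
        ext i; refine Fin.cases ?_ (fun i => ?_) i <;> simp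
      | smul c f _ h =>
        refine fun c' => h6 _ 0 c' ?_
        convert S.smul_mem c (h 0) using 1
        ext i; refine Fin.cases ?_ (fun i => ?_) i <;> simp
    rw [eq_top_iff]
    intro u _
    rw [← Fin.cons_self_tail u]
    exact h5 _ _

theorem f4_of_card [Fintype F] (h : Fintype.card F = 4) :
    (∀ x : F, x ^ 4 = x) ∧ ∃ w : F, w ^ 2 + w + 1 = 0 := by
  classical
  have p4 : ∀ x : F, x ^ 4 = x := fun x => h ▸ FiniteField.pow_card x
  obtain ⟨w, -, hw⟩ := Finset.exists_mem_notMem_of_card_lt_card (s := {0, 1})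
    (t := (Finset.univ : Finset F)) (by rw [Finset.card_pair zero_ne_one, Finset.card_univ]; omega)
  simp only [Finset.mem_insert, Finset.mem_singleton, not_or] at hw
  exact ⟨p4, w, mul_left_cancel₀ (sub_ne_zero.2 hw.2) (by linear_combination f4_cube p4 hw.1)⟩

end CfsgH4
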