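import Cfsg.Agent.H4.Fischer5
import Cfsg.Agent.H4.TvS
import Cfsg.Agent.H4.TvU
import Cfsg.Agent.H5.Mat

/-! Fischer's theory: the symplectic case, and coordinates in the unitary case. -/

set_option autoImplicit false

namespace CfsgH4

open Subgroup CfsgH5

variable {G : Type*} [Group G]

theorem eq_of_ncard_three {α : Type*} {l : Set α} (h : l.ncard = 3) {a b c d : α} (ha : a ∈ l)
    (hb : b ∈ l) (hc : c ∈ l) (hd : d ∈ l) (hab : a ≠ b) (hac : c ≠ a) (hbc : c ≠ b) (had : d ≠ a)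
    (hbd : d ≠ b) : c = d := by
  have h1 : ({a, b, c} : Set α) = l := Set.eq_of_subset_of_ncard_le (by
    rintro _ (rfl | rfl | rfl) <;> assumption) (h.trans (Set.ncard_eq_three.2
      ⟨_, _, _, hab, hac.symm, hbc.symm, rfl⟩).symm).le (Set.finite_of_ncard_ne_zero (by omega))
  rw [← h1] at hd
  rcases hd with rfl | rfl | rfl
  exacts [absurd rfl had, absurd rfl hbd, rfl]

namespace Pol

variable {D : Set G} (P : Pol D) [Finite G]
include P

theorem exists_M {a b : G} (ha : a ∈ D) (hb : b ∈ D) (h : ¬ Commute a b) :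
    ∃ y ∈ D, Commute a y ∧ Commute b y := by
  obtain ⟨y, hy⟩ := P.exc' ha
  obtain ⟨z, hz, z1, z2, -⟩ := P.M_nondeg ha hb h hy
  exact ⟨z, hz, z1, z2⟩

theorem no_affine (h3 : ∀ l, IsLn D l → l.ncard = 3) {p a b : G} (hp : p ∈ D) (ha : a ∈ D)
    (hb : b ∈ D) (hab : ¬ Commute a b) (h1 : ¬ Commute p a) (h2 : ¬ Commute p b) :
    Commute p (a * b * a) := by
  have key : ∀ a ∈ D, ∀ b ∈ D, ¬ Commute a b → ¬ Commute p a → ¬ Commute p b →
      ¬ Commute p (a * b * a) → ∀ y ∈ D, Commute a y → Commute b y → Commute p y := by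
    intro a ha b hb hab h1 h2 h4 y hy y1 y2
    by_contra y3
    have hl := isLn_ln ha hy (fun h => hab (h ▸ y2.symm)) y1
    have hm := isLn_ln hb hy (fun h => hab (h ▸ y1)) y2
    obtain ⟨a', a1, a2⟩ := P.one hl hp
    obtain ⟨b', b1, b2⟩ := P.one hm hp
    have hc := P.cj ha hb
    have hcy : Commute (a * b * a) y := (y1.mul_left y2).mul_left y1
    have hca : a * b * a * a * (a * b * a)⁻¹ = b := by
      rw [P.inv hc, mul_assoc _ a a, P.sq ha, mul_one, P.braid ha hb hab, ← mul_assoc, ← mul_assoc,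
        mul_assoc a b b, P.sq hb, mul_one, P.sq ha, one_mul]
    have h5 := P.ln_conj (a * b * a) a1
    rw [hca, conj_eq_of_commute hcy] at h5
    have h6 : a * b * a * a' * (a * b * a)⁻¹ = b' := eq_of_ncard_three (h3 _ hm) (left_mem_ln hb y)
      (right_mem_ln b hy) h5 b1 (fun h => hab (h ▸ y1)) (fun h => h1
        (mul_left_cancel (mul_right_cancel (h.trans hca.symm)) ▸ a2)) (fun h => y3 (by
        rw [← conj_eq_of_commute hcy] at h; exact (show a' = y by simpa using h) ▸ a2))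
      (fun h => h2 (h ▸ b2)) fun h => y3 (h ▸ b2)
    have h7 : ¬ Commute (a * b * a) a' := P.uniq hl (right_mem_ln a hy) (left_mem_ln ha y) a1 hc hcy
      (fun h => hab (by rw [P.cj_left ha (Commute.refl a)] at h; exact h.symm)) fun h => y3 (h ▸ a2)
    rw [P.inv hc, P.braid hc a1.1 h7] at h6
    exact h4 ((P.cj_right a1.1 a2.symm).1 (h6 ▸ b2))
  by_contra h4
  obtain ⟨y, hy, y1, y2⟩ := P.exists_M ha hb hab
  have y3 := key a ha b hb hab h1 h2 h4 y hy y1 y2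
  have hya : y ≠ a := fun h => hab (h ▸ y2.symm)
  have hl := isLn_ln ha hy hya y1
  obtain ⟨a', a1, a2, a3⟩ := P.third hl (left_mem_ln ha y) (right_mem_ln a hy) hya.symm
  have h5 := P.uniq hl (right_mem_ln a hy) (left_mem_ln ha y) a1 hb y2 (fun h => hab h.symm) a3
  have h6 := key a' a1.1 b hb (fun h => h5 h.symm)
    (P.uniq hl (right_mem_ln a hy) (left_mem_ln ha y) a1 hp y3 h1 a3) h2 (by
      rw [← P.braid hb a1.1 h5, P.cj_swap hb]
      refine P.uniq hl (right_mem_ln a hy) (left_mem_ln ha y) a1 (P.cj hb hp)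
        ((P.cj_left hb y2).2 y3) ?_ a3
      rwa [← P.cj_swap hb, ← P.braid ha hb hab])
  have h7 : ∀ u ∈ D, ¬ Commute b u → (∀ y ∈ D, Commute u y → Commute b y → Commute p y) →
      {y | y ∈ D ∧ Commute u y ∧ Commute b y} = {y | y ∈ D ∧ Commute p y ∧ Commute b y} := by
    intro u hu u1 u2
    obtain ⟨g, hg, rfl⟩ := P.HR_all hb hp hu (fun h => h2 h.symm) u1
    refine Set.eq_of_subset_of_ncard_le (fun y hy => ⟨hy.1, u2 y hy.1 hy.2.1 hy.2.2, hy.2.2⟩)
      (ncard_eq_of_conj g fun z => ?_).le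
    rw [Set.mem_setOf_eq, Set.mem_setOf_eq, commute_conj_iff, ← P.mem_iff,
      commute_conj_right (commute_of_mem_perp hg)]
  obtain ⟨z, hz, z1, z2, z3⟩ := P.M_nondeg ha hb hab ⟨hy, hya, y1⟩
  have h8 : z ∈ {y | y ∈ D ∧ Commute a' y ∧ Commute b y} := by
    rw [h7 a' a1.1 h5 h6]
    exact ⟨hz, key a ha b hb hab h1 h2 h4 z hz z1 z2, z2⟩
  exact z3 (P.two_all hl (left_mem_ln ha y) a1 a2.symm hz z1.symm h8.2.1.symm
    (right_mem_ln a hy)).symm

theorem symplectic (h3 : ∀ l, IsLn D l → l.ncard = 3) :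
    ∃ (n : ℕ) (φ : G → Fin n ⊕ Fin n → ZMod 2),
      (∀ a ∈ D, ∀ b ∈ D, Commute a b ↔ (tvS n).h (φ a) (φ b) = 0) ∧
      (∀ u, u ≠ 0 → ∃ d ∈ D, u = φ d) ∧ Nonempty (G ≃* Matrix.symplecticGroup (Fin n) (ZMod 2)) := by
  classical
  have := Fintype.ofFinite D
  obtain ⟨n, v, h1, h2⟩ := exists_gram_alt (M := D) (fun a b => if Commute (a : G) b then 0 else 1)
    (fun y z => if_congr ⟨Commute.symm, Commute.symm⟩ rfl rfl) fun y => if_pos (Commute.refl _)
  set T := tvS n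
  let φ : G → Fin n ⊕ Fin n → ZMod 2 := fun g => if h : g ∈ D then v ⟨g, h⟩ else 0
  have hφ : ∀ a ∈ D, ∀ b ∈ D, T.h (φ a) (φ b) = if Commute a b then 0 else 1 := fun a ha b hb => by
    simp only [φ, dif_pos ha, dif_pos hb]; exact h1 _ _
  have h4 : ∀ a ∈ D, ∀ b ∈ D, Commute a b ↔ T.h (φ a) (φ b) = 0 := fun a ha b hb => by
    rw [hφ a ha b hb]; simp
  have hext : ∀ a ∈ D, ∀ b ∈ D, ∀ c ∈ D, (∀ p ∈ D, Commute p c ↔ (Commute p a ↔ Commute p b)) →
      φ a + φ b = φ c := by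
    intro a ha b hb c hc h
    rw [← add_left_inj (φ c), T.add_self]
    refine T.nondeg _ fun u => T.perp ?_
    have hu : u ∈ AddSubmonoid.closure (Set.range v) := h2 ▸ AddSubmonoid.mem_top u
    induction hu using AddSubmonoid.closure_induction with
    | mem u hu =>
      obtain ⟨p, rfl⟩ := hu
      rw [show v p = φ p by simp [φ], T.add_right, T.add_right, hφ _ p.2 a ha, hφ _ p.2 b hb,
        hφ _ p.2 c hc]
      have := h p p.2
      by_cases h1 : Commute (p : G) a <;> by_cases h2 : Commute (p : G) b <;>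
        simp only [h1, h2, this, if_true, if_false, iff_true, iff_false, true_iff, false_iff,
          not_true, not_false_iff] <;> decide
    | zero => exact T.zero_left _
    | add f f' _ _ h h' => rw [T.add_left, h, h', add_zero]
  have h5 : ∀ a ∈ D, ∀ b ∈ D, ¬ Commute a b → φ a + φ b = φ (a * b * a) := fun a ha b hb h =>
    hext a ha b hb _ (P.cj ha hb) fun p hp => by
      by_cases h1 : Commute p a
      · rw [P.cj_right ha h1.symm]; simp [h1]
      · by_cases h2 : Commute p b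
        · rw [P.braid ha hb h, P.cj_right hb h2.symm]; simp [h2]
        · simp [h1, h2, P.no_affine h3 hp ha hb h h1 h2]
  have h6 : ∀ u, u = 0 ∨ ∃ d ∈ D, u = φ d := fun u => by
    have hu : u ∈ AddSubmonoid.closure (Set.range v) := h2 ▸ AddSubmonoid.mem_top u
    induction hu using AddSubmonoid.closure_induction with
    | mem u hu => obtain ⟨p, rfl⟩ := hu; exact Or.inr ⟨p, p.2, by simp [φ]⟩
    | zero => exact Or.inl rfl
    | add f f' _ _ h h' =>
      rcases h with rfl | ⟨a, ha, rfl⟩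
      · rwa [zero_add]
      rcases h' with rfl | ⟨b, hb, rfl⟩
      · exact Or.inr ⟨a, ha, add_zero _⟩
      by_cases hab : b = a
      · exact Or.inl (hab ▸ T.add_self _)
      by_cases h : Commute a b
      swap; · exact Or.inr ⟨_, P.cj ha hb, h5 a ha b hb h⟩
      have hl := isLn_ln ha hb hab h
      have l1 := left_mem_ln ha b
      have l2 := right_mem_ln a hb
      obtain ⟨c, hc, c1, c2⟩ := P.third hl l1 l2 (Ne.symm hab)
      refine Or.inr ⟨c, hc.1, hext a ha b hb c hc.1 fun p hp => ⟨fun h1 =>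
        ⟨fun h2 => P.two_all hl hc l1 c1 hp h1 h2 l2, fun h2 => P.two_all hl hc l2 c2 hp h1 h2 l1⟩,
        fun h1 => ?_⟩⟩
      by_cases h2 : Commute p a
      · exact hc.2 p hp h2 (h1.1 h2)
      · obtain ⟨d, hd, d1⟩ := P.one hl hp
        rwa [eq_of_ncard_three (h3 _ hl) l1 l2 hc hd (Ne.symm hab) c1 c2 (fun h => h2 (h ▸ d1))
          fun h => h2 (h1.2 (h ▸ d1))]
  obtain ⟨e⟩ := T.iso_quot P.toFis P.cen (tvS_gen n) φ h4 (fun u u0 _ => by
    obtain ⟨d, hd, h⟩ := (h6 u).resolve_left u0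
    exact ⟨d, hd, 1, by rw [h, one_smul]⟩) fun a ha b hb => by
      rw [T.t_conj _ (tvS_self n _), T.ht _ (tvS_self n _), hφ b hb a ha]
      split_ifs with h
      · rw [zero_smul, add_zero, conj_eq_of_commute h.symm]
      · rw [one_smul, add_comm, h5 a ha b hb fun h' => h h'.symm, P.inv ha]
  exact ⟨n, φ, h4, fun u u0 => (h6 u).resolve_left u0, ⟨e.trans
    ((QuotientGroup.quotientMulEquivOfEq (tvS_center n)).trans QuotientGroup.quotientBot)⟩⟩

end Pol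

/-- identity or Frobenius -/
def fr (e : Bool) (a : F4) : F4 := if e then a * a else a

theorem f4_trans : ∀ σ : F4 → F4, (∀ b, σ (σ b) = b) → (∀ b, σ b ≠ b) → ∀ b, σ b = b + σ 0 := by
  decide +kernel

theorem f4_semi : ∀ σ : F4 → F4, (∀ a b, σ a = σ b → a = b) → σ 0 = 0 →
    ∃ c, c ≠ 0 ∧ ∃ e, ∀ a, σ a = c * fr e a := by
  decide +kernel

theorem f4_tri : ∀ (c d k : F4) (e e' e'' : Bool), c ≠ 0 → d ≠ 0 → k ≠ 0 →
    ((∀ a, c * fr e a = d * fr e' (k * fr e'' a)) ∨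
      ∀ a, a ≠ 0 → c * fr e a ≠ d * fr e' (k * fr e'' a)) → e = xor e' e'' := by
  decide +kernel

theorem f4_p4 : ∀ x : F4, x ^ 4 = x := by decide +kernel

theorem f4_w : F4.w ^ 2 + F4.w + 1 = 0 := by decide +kernel

/-- common neighbours -/
def MM (D : Set G) (x f : G) : Set G := {y | y ∈ D ∧ Commute x y ∧ Commute f y}

/-- coordinates on the lines through `x` -/
structure Uni (D : Set G) (x f : G) (ι : G → F4 → G) : Prop extends Pol D where
  hx : x ∈ D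
  hf : f ∈ D
  hxf : ¬ Commute x f
  h5 : ∀ l, IsLn D l → l.ncard = 5
  mem : ∀ y ∈ MM D x f, ∀ a, ι y a ∈ ln D x y
  ne : ∀ y ∈ MM D x f, ∀ a, ι y a ≠ x
  inj : ∀ y ∈ MM D x f, Function.Injective (ι y)
  surj : ∀ y ∈ MM D x f, ∀ z ∈ ln D x y, z ≠ x → ∃ a, ι y a = z
  zero : ∀ y ∈ MM D x f, ι y 0 = y

theorem Pol.exists_uni {D : Set G} (P : Pol D) [Finite G] (h5 : ∀ l, IsLn D l → l.ncard = 5)
    {x f : G} (hx : x ∈ D) (hf : f ∈ D) (hxf : ¬ Commute x f) : ∃ ι, Uni D x f ι := by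
  classical
  have : ∀ y, ∃ j : F4 → G, y ∈ MM D x f → (∀ a, j a ∈ ln D x y) ∧ (∀ a, j a ≠ x) ∧
      Function.Injective j ∧ (∀ z ∈ ln D x y, z ≠ x → ∃ a, j a = z) ∧ j 0 = y := by
    intro y
    by_cases hy : y ∈ MM D x f
    swap; · exact ⟨fun _ => 1, fun h => absurd h hy⟩
    have hyx : y ≠ x := fun h => hxf (h ▸ hy.2.2.symm)
    have h1 : Nat.card F4 = Nat.card ↥(ln D x y \ {x}) := by
      rw [Nat.card_coe_set_eq, Set.ncard_diff_singleton_of_mem (left_mem_ln hx y),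
        h5 _ (isLn_ln hx hy.1 hyx hy.2.1), Nat.card_eq_fintype_card, F4.card_eq]
    obtain ⟨e⟩ := Finite.card_eq.1 h1
    let e' := e.trans (Equiv.swap (e 0) ⟨y, right_mem_ln x hy.1, hyx⟩)
    exact ⟨fun a => e' a, fun _ => ⟨fun a => (e' a).2.1, fun a => (e' a).2.2,
      Subtype.val_injective.comp e'.injective, fun z h1 h2 => ⟨e'.symm ⟨z, h1, h2⟩, by simp⟩,
      by simp [e']⟩⟩
  choose ι h using this
  exact ⟨ι, P, hx, hf, hxf, h5, fun y hy => (h y hy).1, fun y hy => (h y hy).2.1,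
    fun y hy => (h y hy).2.2.1, fun y hy => (h y hy).2.2.2.1, fun y hy => (h y hy).2.2.2.2⟩

/-- the coordinate of the image of `z` -/
noncomputable def kap (ι : G → F4 → G) (q z : G) : F4 := Function.invFun (ι z) (q * z * q⁻¹)

/-- the unipotent radical -/
def QQ (D : Set G) (x f : G) (ι : G → F4 → G) : Subgroup G :=
  closure {q | q = x ∨ ∃ y ∈ MM D x f, ∃ a, q = y * ι y a}

namespace Uni

variable {D : Set G} {x f : G} {ι : G → F4 → G} (U : Uni D x f ι)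
include U

theorem Mne {y : G} (hy : y ∈ MM D x f) : y ≠ x := fun h => U.hxf (h ▸ hy.2.2.symm)

theorem lnM {y : G} (hy : y ∈ MM D x f) : IsLn D (ln D x y) := isLn_ln U.hx hy.1 (U.Mne hy) hy.2.1

theorem ιD {y : G} (hy : y ∈ MM D x f) (a : F4) : ι y a ∈ D := (U.mem y hy a).1

theorem ιc {y z : G} (hy : y ∈ MM D x f) (a : F4) (hz : z ∈ D) (h1 : Commute x z)
    (h2 : Commute z y) : Commute z (ι y a) := (U.mem y hy a).2 z hz h1.symm h2

theorem ιx {y : G} (hy : y ∈ MM D x f) (a : F4) : Commute x (ι y a) :=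
  U.ιc hy a U.hx (Commute.refl x) hy.2.1

theorem ιι {y : G} (hy : y ∈ MM D x f) (a b : F4) : Commute (ι y a) (ι y b) :=
  (U.lnM hy).comm (U.mem y hy a) (U.mem y hy b)

theorem ιy {y : G} (hy : y ∈ MM D x f) (a : F4) : Commute y (ι y a) :=
  U.ιc hy a hy.1 hy.2.1 (Commute.refl y)

theorem ιne {y : G} (hy : y ∈ MM D x f) {a : F4} (ha : a ≠ 0) : ι y a ≠ y :=
  fun h => ha (U.inj y hy (h.trans (U.zero y hy).symm))

theorem Mcj {y z : G} (hy : y ∈ MM D x f) (hz : z ∈ MM D x f) : y * z * y ∈ MM D x f :=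
  ⟨U.cj hy.1 hz.1, (hy.2.1.mul_right hz.2.1).mul_right hy.2.1,
    (hy.2.2.mul_right hz.2.2).mul_right hy.2.2⟩

theorem x_mem : x ∈ QQ D x f ι := subset_closure (Or.inl rfl)

theorem gen_mem {y : G} (hy : y ∈ MM D x f) (a : F4) : y * ι y a ∈ QQ D x f ι :=
  subset_closure (Or.inr ⟨y, hy, a, rfl⟩)

theorem gen_sq {y : G} (hy : y ∈ MM D x f) (a : F4) : y * ι y a * (y * ι y a) = 1 := by
  rw [← pow_two]; exact U.two hy.1 (U.ιD hy a) (U.ιy hy a)

theorem gen_inv {y : G} (hy : y ∈ MM D x f) (a : F4) : (y * ι y a)⁻¹ = y * ι y a :=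
  inv_eq_of_mul_eq_one_right (U.gen_sq hy a)

theorem Q_x {q : G} (hq : q ∈ QQ D x f ι) : Commute q x := by
  refine mem_centralizer_singleton_iff.1 (((closure_le (centralizer {x})).2 ?_) hq)
  rintro _ (rfl | ⟨y, hy, a, rfl⟩)
  exacts [mem_centralizer_singleton_iff.2 rfl,
    mem_centralizer_singleton_iff.2 (hy.2.1.mul_right (U.ιx hy a)).symm]

theorem kap_eq {q z : G} (hz : z ∈ MM D x f) {c : F4} (h : q * z * q⁻¹ = ι z c) : kap ι q z = c := by
  rw [kap, h, Function.leftInverse_invFun (U.inj z hz)]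

variable [Finite G]

theorem nc {y z : G} (hy : y ∈ MM D x f) (hz : z ∈ MM D x f) (h : ¬ Commute y z) (a b : F4) :
    ¬ Commute (ι y a) (ι z b) :=
  U.uniq (U.lnM hz) (left_mem_ln U.hx z) (right_mem_ln x hz.1) (U.mem z hz b) (U.ιD hy a)
    (U.ιx hy a).symm (fun h1 => U.uniq (U.lnM hy) (left_mem_ln U.hx y) (right_mem_ln x hy.1)
      (U.mem y hy a) hz.1 hz.2.1.symm (fun h2 => h h2.symm) (U.ne y hy a) h1.symm) (U.ne z hz b)

theorem nc' {y z : G} (hy : y ∈ MM D x f) (hz : z ∈ MM D x f) (h : ¬ Commute y z) (b : F4) :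
    ¬ Commute y (ι z b) := by
  have := U.nc hy hz h 0 b; rwa [U.zero y hy] at this

theorem f_iff {y : G} (hy : y ∈ MM D x f) (a : F4) : Commute f (ι y a) ↔ a = 0 :=
  ⟨fun h => by_contra fun ha => U.uniq (U.lnM hy) (right_mem_ln x hy.1) (left_mem_ln U.hx y)
    (U.mem y hy a) U.hf hy.2.2 (fun h => U.hxf h.symm) (U.ιne hy ha) h,
    fun h => by rw [h, U.zero y hy]; exact hy.2.2⟩

theorem exists_ι {u : G} (hu : u ∈ D) (h1 : u ≠ x) (h2 : Commute x u) :
    ∃ y ∈ MM D x f, ∃ a, ι y a = u := by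
  have hl := isLn_ln U.hx hu h1 h2
  obtain ⟨y, hy, y1⟩ := U.one hl U.hf
  have hM : y ∈ MM D x f := ⟨hy.1, hl.comm (left_mem_ln U.hx u) hy, y1⟩
  exact ⟨y, hM, U.surj y hM u (U.eq_ln hl (left_mem_ln U.hx u) hy (U.Mne hM).symm ▸
    right_mem_ln x hu) h1⟩

theorem tr_aux {q z : G} (hq : q ∈ QQ D x f ι) (hz : z ∈ MM D x f) :
    ∃ c, ∀ b, q * ι z b * q⁻¹ = ι z (b + c) := by
  induction hq using closure_induction with
  | one => exact ⟨0, by simp⟩
  | mul a b _ _ ha hb =>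
    obtain ⟨c, hc⟩ := ha
    obtain ⟨d, hd⟩ := hb
    exact ⟨d + c, fun e => by rw [← add_assoc, ← hc, ← hd]; group⟩
  | inv a _ ha =>
    obtain ⟨c, hc⟩ := ha
    exact ⟨-c, fun e => by rw [← neg_add_cancel_right e c, ← hc, neg_add_cancel_right]; group⟩
  | mem q hq =>
    rcases hq with rfl | ⟨y, hy, a, rfl⟩
    · exact ⟨0, fun b => by rw [add_zero, conj_eq_of_commute (U.ιx hz b)]⟩
    by_cases h : Commute y z
    · exact ⟨0, fun b => by
        rw [add_zero, conj_eq_of_commute ((U.ιc hz b hy.1 hy.2.1 h).mul_left (U.ιc hz b (U.ιD hy a)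
          (U.ιx hy a) (U.ιc hy a hz.1 hz.2.1 h.symm).symm))]⟩
    by_cases ha : a = 0
    · exact ⟨0, fun b => by rw [ha, U.zero y hy, U.sq hy.1]; simp⟩
    have h1 : ∀ b, ∃ c, ι z c = y * ι y a * ι z b * (y * ι y a)⁻¹ := fun b =>
      U.surj z hz _ (U.L2 U.hx (U.lnM hy) (U.lnM hz) (left_mem_ln U.hx y) (left_mem_ln U.hx z)
        (right_mem_ln x hy.1) (U.mem y hy a) (U.Mne hy) (U.ne y hy a) (U.mem z hz b)) fun h2 =>
        U.ne z hz b (by rw [← conj_eq_of_commute (U.Q_x (U.gen_mem hy a))] at h2; simpa using h2)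
    choose σ hσ using h1
    suffices h3 : ∀ b, σ b = b + σ 0 from ⟨σ 0, fun b => by rw [← hσ, h3 b]⟩
    refine f4_trans σ (fun b => U.inj z hz ?_) fun b h2 => ?_
    · rw [hσ, hσ, U.gen_inv hy]
      generalize y * ι y a = g, U.gen_sq hy a = h3
      rw [show g * (g * ι z b * g) * g = g * g * ι z b * (g * g) by group, h3]; simp
    · have := hσ b
      rw [h2] at this
      exact U.nc' hy hz h b ((U.commute_mul_iff hy.1 (U.ιD hy a) (U.ιD hz b) (U.ιne hy ha).symm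
        (U.ιy hy a)).1 (commute_of_conj_eq this.symm).symm).1.symm

theorem tr {q z : G} (hq : q ∈ QQ D x f ι) (hz : z ∈ MM D x f) (b : F4) :
    q * ι z b * q⁻¹ = ι z (b + kap ι q z) := by
  obtain ⟨c, hc⟩ := U.tr_aux hq hz
  have := hc 0
  rw [U.zero z hz, zero_add] at this
  rw [U.kap_eq hz this, hc]

theorem tr0 {q z : G} (hq : q ∈ QQ D x f ι) (hz : z ∈ MM D x f) :
    q * z * q⁻¹ = ι z (kap ι q z) := by
  have := U.tr hq hz 0
  rwa [U.zero z hz, zero_add] at this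

theorem kap_mul {q r z : G} (hq : q ∈ QQ D x f ι) (hr : r ∈ QQ D x f ι) (hz : z ∈ MM D x f) :
    kap ι (q * r) z = kap ι q z + kap ι r z :=
  U.kap_eq hz (by rw [add_comm, ← U.tr hq hz, ← U.tr0 hr hz]; group)

theorem kap_zero {q z : G} (hq : q ∈ QQ D x f ι) (hz : z ∈ MM D x f) :
    kap ι q z = 0 ↔ Commute q z :=
  ⟨fun h => commute_of_conj_eq (by rw [U.tr0 hq hz, h, U.zero z hz]),
    fun h => U.kap_eq hz (by rw [conj_eq_of_commute h, U.zero z hz])⟩

theorem fq_iff {q z : G} (hq : q ∈ QQ D x f ι) (hz : z ∈ MM D x f) (b : F4) :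
    Commute (q * f * q⁻¹) (ι z b) ↔ b = kap ι q z := by
  rw [← add_sub_cancel_right b (kap ι q z), add_sub_right_comm, ← U.tr hq hz, commute_conj_iff,
    U.f_iff hz, sub_add_cancel, sub_eq_zero]

theorem semireg {q : G} (hq : q ∈ QQ D x f ι) (h : Commute q f) : q = 1 := by
  have h1 : closure (perp D x) ≤ centralizer {q} := (closure_le _).2 fun u hu => by
    refine mem_centralizer_singleton_iff.2 (Commute.symm ?_)
    by_cases h1 : u = x
    · exact h1 ▸ U.Q_x hq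
    obtain ⟨y, hy, a, rfl⟩ := U.exists_ι hu.1 h1 hu.2
    have := (U.fq_iff hq hy 0).1 (by rw [conj_eq_of_commute h, U.f_iff hy])
    exact commute_of_conj_eq (by rw [U.tr hq hy, ← this, add_zero])
  refine U.eq_one_of_commute fun u hu => mem_centralizer_singleton_iff.1 ?_
  by_cases h2 : Commute x u
  · exact h1 (subset_closure ⟨hu, h2⟩)
  · obtain ⟨g, hg, rfl⟩ := U.HR_all U.hx U.hf hu U.hxf h2
    exact mul_mem (mul_mem (h1 hg) (mem_centralizer_singleton_iff.2 h.symm)) (inv_mem (h1 hg))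

theorem Q_norm {y q : G} (hy : y ∈ MM D x f) (hq : q ∈ QQ D x f ι) : y * q * y⁻¹ ∈ QQ D x f ι := by
  induction hq using closure_induction with
  | one => simpa using one_mem _
  | mul a b _ _ ha hb => simpa [mul_assoc] using mul_mem ha hb
  | inv a _ ha => simpa [mul_assoc] using inv_mem ha
  | mem q hq =>
    rcases hq with rfl | ⟨z, hz, a, rfl⟩
    · rw [conj_eq_of_commute hy.2.1.symm]; exact U.x_mem
    have h1 := U.ln_conj y (U.mem z hz a)
    rw [conj_eq_of_commute hy.2.1.symm, U.inv hy.1] at h1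
    obtain ⟨b, hb⟩ := U.surj _ (U.Mcj hy hz) _ h1 fun h => U.ne z hz a (by
      rw [← conj_eq_of_commute hy.2.1.symm, U.inv hy.1] at h; simpa using h)
    have := U.gen_mem (U.Mcj hy hz) b
    rw [hb, show y * z * y * (y * ι z a * y) = y * (z * (y * y) * ι z a) * y by group, U.sq hy.1,
      mul_one] at this
    rwa [U.inv hy.1]

theorem Q_trans {u : G} (hu : u ∈ D) (h : ¬ Commute x u) : ∃ q ∈ QQ D x f ι, q * f * q⁻¹ = u := by
  obtain ⟨g, hg, rfl⟩ := U.HR_all U.hx U.hf hu U.hxf h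
  suffices key : ∀ q ∈ QQ D x f ι, ∃ r ∈ QQ D x f ι, r * f * r⁻¹ = g * (q * f * q⁻¹) * g⁻¹ by
    simpa using key 1 (one_mem _)
  clear hu h
  have h1 : ∀ g ∈ perp D x, ∀ q ∈ QQ D x f ι, ∃ r ∈ QQ D x f ι,
      r * f * r⁻¹ = g * (q * f * q⁻¹) * g⁻¹ := by
    intro g hg q hq
    by_cases h1 : g = x
    · exact ⟨g * q, mul_mem (h1 ▸ U.x_mem) hq, by group⟩
    obtain ⟨y, hy, a, rfl⟩ := U.exists_ι hg.1 h1 hg.2
    refine ⟨_, U.Q_norm hy (mul_mem (U.gen_mem hy a) hq), ?_⟩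
    rw [← mul_assoc, ← mul_assoc, U.sq hy.1, one_mul, show ι y a * q * y⁻¹ * f * (ι y a * q * y⁻¹)⁻¹ =
      ι y a * q * (y⁻¹ * f * y⁻¹⁻¹) * (ι y a * q)⁻¹ by group,
      conj_eq_of_commute hy.2.2.symm.inv_left]
    group
  induction hg using closure_induction'' with
  | one => exact fun q hq => ⟨q, hq, by simp⟩
  | mem g hg => exact h1 g hg
  | inv_mem g hg => rw [U.inv hg.1]; exact h1 g hg
  | mul a b _ _ ha hb =>
    intro q hq
    obtain ⟨r, hr, h2⟩ := hb q hq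
    obtain ⟨s, hs, h3⟩ := ha r hr
    exact ⟨s, hs, by rw [h3, h2]; group⟩

theorem Phi_zero {y z : G} (hy : y ∈ MM D x f) (hz : z ∈ MM D x f) : kap ι (y * ι y 0) z = 0 := by
  rw [U.kap_zero (U.gen_mem hy 0) hz, U.zero y hy, U.sq hy.1]
  exact Commute.one_left z

theorem Phi_symm {y z : G} (hy : y ∈ MM D x f) (hz : z ∈ MM D x f) (h : ¬ Commute y z) (a : F4) :
    kap ι (z * ι z (kap ι (y * ι y a) z)) y = a := by
  refine U.kap_eq hy ?_
  rw [U.gen_inv hz, ← U.tr0 (U.gen_mem hy a) hz, U.gen_inv hy]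
  have sy := U.sq hy.1; have sz := U.sq hz.1; have su := U.sq (U.ιD hy a)
  have r0 := U.cube hy.1 hz.1 h
  have r1 := U.cube hz.1 (U.ιD hy a) (U.nc' hz hy (fun h1 => h h1.symm) a)
  have r2 := U.two hy.1 (U.ιD hy a) (U.ιy hy a)
  simpa only [mul_assoc] using 
        (show z * y * (ι y a) * z * y * (ι y a) * y * z * y * (ι y a) * z * y * (ι y a) = (ι y
        a) from weq [y, z, ι y a] ⟨sy, sz, su⟩ [([0, 1], 3), ([1, 2], 3), ([0, 2], 2)] ⟨r0, r1,
        r2⟩ [1, 0, 2, 1, 0, 2, 0, 1, 0, 2, 1, 0, 2] [2] [(4, 2, 1, false), (2, 1, 0, false), (3,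
        2, 0, false), (0, 0, 0, false)] (by decide))

theorem Phi_semi {y z : G} (hy : y ∈ MM D x f) (hz : z ∈ MM D x f) (h : ¬ Commute y z) :
    ∃ c, c ≠ 0 ∧ ∃ e, ∀ a, kap ι (y * ι y a) z = c * fr e a :=
  f4_semi _ (fun a b hab => by rw [← U.Phi_symm hy hz h a, hab, U.Phi_symm hy hz h b])
    (U.Phi_zero hy hz)

theorem Phi_tri {y z u : G} (hy : y ∈ MM D x f) (hz : z ∈ MM D x f) (hu : u ∈ MM D x f) (a : F4) :
    kap ι (y * ι y a) z = kap ι (u * ι u (kap ι (y * ι y a) u)) z ↔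
      Commute (y * ι y a) (u * z * u) := by
  have h1 := U.gen_mem hy a
  have h2 := U.gen_mem hu (kap ι (y * ι y a) u)
  have h3 : u * (y * ι y a) * u = y * ι y a * (u * ι u (kap ι (y * ι y a) u)) := by
    rw [(U.ιy hu _).eq, ← U.tr0 h1 hu, U.gen_inv hy]
    generalize y * ι y a = g, U.gen_sq hy a = h3
    rw [show g * (g * u * g * u) = g * g * (u * g * u) by group, h3, one_mul]
  rw [U.cj_swap hu.1, h3, ← U.kap_zero (mul_mem h1 h2) hz, U.kap_mul h1 h2 hz, add_eq_zero_iff_eq_neg]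
  rfl

theorem exists_common {y z : G} (hy : y ∈ MM D x f) (hz : z ∈ MM D x f) :
    ∃ b ∈ MM D x f, ¬ Commute y b ∧ ¬ Commute z b := by
  obtain ⟨a, ha, a1, a2, a3⟩ := U.M_nondeg U.hx U.hf U.hxf ⟨hy.1, U.Mne hy, hy.2.1⟩
  obtain ⟨b, hb, b1, b2, b3⟩ := U.M_nondeg U.hx U.hf U.hxf ⟨hz.1, U.Mne hz, hz.2.1⟩
  by_cases h1 : Commute z a
  swap; · exact ⟨a, ⟨ha, a1, a2⟩, a3, h1⟩
  by_cases h2 : Commute y b
  swap; · exact ⟨b, ⟨hb, b1, b2⟩, h2, b3⟩
  by_cases h3 : Commute a b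
  · have h4 : b ≠ a := fun h => a3 (h ▸ h2)
    have hl := isLn_ln ha hb h4 h3
    obtain ⟨t, ht, t1, t2⟩ := U.third hl (left_mem_ln ha b) (right_mem_ln a hb) h4.symm
    exact ⟨t, ⟨ht.1, ht.2 x U.hx a1 b1, ht.2 f U.hf a2 b2⟩,
      U.uniq hl (right_mem_ln a hb) (left_mem_ln ha b) ht hy.1 h2 a3 t2,
      U.uniq hl (left_mem_ln ha b) (right_mem_ln a hb) ht hz.1 h1 b3 t1⟩
  · refine ⟨_, U.Mcj ⟨ha, a1, a2⟩ ⟨hb, b1, b2⟩, ?_, by rwa [U.cj_right ha h1.symm]⟩
    rwa [U.braid ha hb h3, U.cj_right hb h2.symm]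

theorem exists_lin : ∃ ι', Uni D x f ι' ∧ ∀ y ∈ MM D x f, ∀ z ∈ MM D x f, ∀ a,
    kap ι' (y * ι' y a) z = kap ι' (y * ι' y 1) z * a := by
  classical
  have h1 : ∀ z y, ∃ e, y ∈ MM D x f → z ∈ MM D x f → ¬ Commute y z →
      ∃ c, c ≠ 0 ∧ ∀ a, kap ι (y * ι y a) z = c * fr e a := fun z y => by
    by_cases h : y ∈ MM D x f ∧ z ∈ MM D x f ∧ ¬ Commute y z
    · obtain ⟨c, hc, e, he⟩ := U.Phi_semi h.1 h.2.1 h.2.2
      exact ⟨e, fun _ _ _ => ⟨c, hc, he⟩⟩
    · exact ⟨false, fun h1 h2 h3 => absurd ⟨h1, h2, h3⟩ h⟩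
  choose σ hσ using h1
  have hsym : ∀ y ∈ MM D x f, ∀ z ∈ MM D x f, ¬ Commute y z → σ y z = σ z y := by
    intro y hy z hz h
    obtain ⟨c, hc, h1⟩ := hσ z y hy hz h
    obtain ⟨d, hd, h2⟩ := hσ y z hz hy fun h' => h h'.symm
    have := f4_tri 1 d c false (σ y z) (σ z y) one_ne_zero hd hc (Or.inl fun a => by
      rw [← h1, ← h2, U.Phi_symm hy hz h]; simp [fr])
    revert this; cases σ y z <;> cases σ z y <;> simp
  have htri : ∀ y ∈ MM D x f, ∀ z ∈ MM D x f, ∀ u ∈ MM D x f, ¬ Commute y z → ¬ Commute y u →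
      ¬ Commute u z → σ z y = xor (σ z u) (σ u y) := by
    intro y hy z hz u hu h1 h2 h3
    obtain ⟨c, hc, k1⟩ := hσ z y hy hz h1
    obtain ⟨d, hd, k2⟩ := hσ z u hu hz h3
    obtain ⟨k, hk, k3⟩ := hσ u y hy hu h2
    refine f4_tri c d k _ _ _ hc hd hk ?_
    simp only [← k1, ← k3, ← k2, ne_eq, U.Phi_tri hy hz hu]
    have hv := U.Mcj hu hz
    by_cases h : Commute y (u * z * u)
    · exact Or.inl fun a => h.mul_left (U.ιc hy a hv.1 hv.2.1 h.symm).symm
    · exact Or.inr fun a ha h4 => h ((U.commute_mul_iff hy.1 (U.ιD hy a) hv.1 (U.ιne hy ha).symm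
        (U.ιy hy a)).1 h4.symm).1.symm
  have hadj : ∀ y ∈ MM D x f, ∀ v ∈ MM D x f, ∀ z ∈ MM D x f, ∀ u ∈ MM D x f, ¬ Commute y z →
      ¬ Commute v z → ¬ Commute y u → ¬ Commute v u → ¬ Commute u z →
      xor (σ v z) (σ z y) = xor (σ v u) (σ u y) := by
    intro y hy v hv z hz u hu h1 h2 h3 h4 h5
    rw [htri y hy z hz u hu h1 h3 h5, hsym v hv z hz h2, hsym v hv u hu h4,
      htri v hv z hz u hu h2 h4 h5]
    cases σ z u <;> cases σ u v <;> cases σ u y <;> rfl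
  have hP2 : ∀ y ∈ MM D x f, ∀ v ∈ MM D x f, ∀ z ∈ MM D x f, ∀ u ∈ MM D x f, ¬ Commute y z →
      ¬ Commute v z → ¬ Commute y u → ¬ Commute v u →
      xor (σ v z) (σ z y) = xor (σ v u) (σ u y) := by
    intro y hy v hv z hz u hu h1 h2 h3 h4
    by_cases h5 : Commute u z
    swap; · exact hadj y hy v hv z hz u hu h1 h2 h3 h4 h5
    by_cases h6 : v = y
    · rw [h6, hsym y hy z hz h1, hsym y hy u hu h3]; simp
    by_cases h7 : Commute y v
    swap
    · rw [← htri y hy v hv z hz h7 h1 fun h => h2 h.symm,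
        ← htri y hy v hv u hu h7 h3 fun h => h4 h.symm]
    have hl := isLn_ln hy.1 hv.1 h6 h7
    obtain ⟨a, ha, a1⟩ := U.one hl hz.1
    obtain ⟨b, hb, b1⟩ := U.one hl hu.1
    obtain ⟨t, ht, t1⟩ := Set.exists_mem_notMem_of_ncard_lt_ncard (s := {a, b}) (t := ln D y v) (by
      rw [U.h5 _ hl]
      have := Set.ncard_insert_le a {b}
      have := Set.ncard_singleton b
      omega)
    simp only [Set.mem_insert_iff, Set.mem_singleton_iff, not_or] at t1
    have t2 := U.uniq hl ha (left_mem_ln hy.1 v) ht hz.1 a1 (fun h => h1 h.symm) t1.1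
    have t3 := U.uniq hl hb (left_mem_ln hy.1 v) ht hu.1 b1 (fun h => h3 h.symm) t1.2
    have hM : t * z * t ∈ MM D x f :=
      U.Mcj ⟨ht.1, ht.2 x U.hx hy.2.1 hv.2.1, ht.2 f U.hf hy.2.2 hv.2.2⟩ hz
    have t4 : ¬ Commute y (t * z * t) := by
      rwa [U.cj_right ht.1 (hl.comm ht (left_mem_ln hy.1 v))]
    have t5 : ¬ Commute v (t * z * t) := by
      rwa [U.cj_right ht.1 (hl.comm ht (right_mem_ln y hv.1))]
    rw [hadj y hy v hv z hz _ hM h1 h2 t4 t5 (by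
        rw [← U.braid hz.1 ht.1 t2, U.cj_left hz.1 (Commute.refl z)]; exact fun h => t2 h.symm),
      hadj y hy v hv _ hM u hu t4 t5 h3 h4 (by
        rwa [← U.braid hz.1 ht.1 t2, U.cj_right hz.1 h5.symm])]
  obtain ⟨y₀, hy₀⟩ := U.exists_M U.hx U.hf U.hxf
  replace hy₀ : y₀ ∈ MM D x f := hy₀
  have h2 : ∀ z, ∃ o, z ∈ MM D x f → ∀ b ∈ MM D x f, ¬ Commute y₀ b → ¬ Commute z b →
      o = xor (σ z b) (σ b y₀) := fun z => by
    by_cases hz : z ∈ MM D x f
    · obtain ⟨b, hb, b1, b2⟩ := U.exists_common hy₀ hz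
      exact ⟨_, fun _ c hc c1 c2 => hP2 y₀ hy₀ z hz b hb c hc b1 b2 c1 c2⟩
    · exact ⟨false, fun h => absurd h hz⟩
  choose o ho using h2
  have h3 : ∀ y ∈ MM D x f, ∀ z ∈ MM D x f, ¬ Commute y z → ¬ Commute y₀ y →
      σ z y = xor (o z) (o y) := by
    intro y hy z hz h h'
    obtain ⟨b, hb, b1, b2⟩ := U.exists_common hy₀ hy
    rw [ho z hz y hy h' fun h1 => h h1.symm, ho y hy b hb b1 b2,
      ← htri y₀ hy₀ y hy b hb h' b1 fun h1 => b2 h1.symm]
    simp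
  have h4 : ∀ y ∈ MM D x f, ∀ z ∈ MM D x f, ¬ Commute y z → σ z y = xor (o z) (o y) := by
    intro y hy z hz h
    by_cases h' : Commute y₀ y
    swap; · exact h3 y hy z hz h h'
    by_cases h'' : Commute y₀ z
    swap; · rw [← hsym y hy z hz h, h3 z hz y hy (fun h1 => h h1.symm) h'', Bool.xor_comm]
    obtain ⟨b, hb, b1, b2, b3⟩ : ∃ b ∈ MM D x f, ¬ Commute y₀ b ∧ ¬ Commute z b ∧ ¬ Commute y b := by
      obtain ⟨b, hb, b1, b2⟩ := U.exists_common hy₀ hz
      by_cases b3 : Commute y b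
      · refine ⟨_, U.Mcj hz hb, by rwa [U.cj_right hz.1 h''.symm],
          by rwa [U.cj_right hz.1 (Commute.refl z)], ?_⟩
        rw [U.cj_swap hz.1, ← U.braid hy.1 hz.1 h, U.cj_left hy.1 b3]
        exact b2
      · exact ⟨b, hb, b1, b2, b3⟩
    rw [ho z hz b hb b1 b2, ho y hy b hb b1 b3, htri y hy z hz b hb h b3 fun h1 => b2 h1.symm,
      hsym y hy b hb b3]
    cases σ z b <;> cases σ b y <;> cases σ b y₀ <;> rfl
  have f1 : ∀ e a, fr e (fr e a) = a := by decide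
  have f2 : ∀ e, fr e 0 = 0 := by decide
  have f3 : ∀ e e' c a, fr e (c * fr (xor e e') (fr e' a)) = fr e (c * fr (xor e e') (fr e' 1)) * a := by
    decide
  have U' : Uni D x f fun y a => ι y (fr (o y) a) :=
    ⟨U.toPol, U.hx, U.hf, U.hxf, U.h5, fun y hy a => U.mem y hy _, fun y hy a => U.ne y hy _,
      fun y hy a b h => by rw [← f1 (o y) a, U.inj y hy h, f1], fun y hy z h1 h2 => by
        obtain ⟨a, rfl⟩ := U.surj y hy z h1 h2
        exact ⟨fr (o y) a, by simp only [f1]⟩, fun y hy => by simp only [f2, U.zero y hy]⟩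
  refine ⟨_, U', fun y hy z hz a => ?_⟩
  have h5 : ∀ a, kap (fun y a => ι y (fr (o y) a)) (y * ι y a) z = fr (o z) (kap ι (y * ι y a) z) :=
    fun a => U'.kap_eq hz (by rw [f1, U.tr0 (U.gen_mem hy a) hz])
  rw [h5, h5]
  by_cases h : Commute y z
  · have : ∀ a, kap ι (y * ι y a) z = 0 := fun a => (U.kap_zero (U.gen_mem hy a) hz).2
      (h.mul_left (U.ιc hy a hz.1 hz.2.1 h.symm).symm)
    rw [this, this, f2, zero_mul]
  · obtain ⟨c, -, hc⟩ := hσ z y hy hz h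
    rw [hc, hc, h4 y hy z hz h, f3]

end Uni

end CfsgH4
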