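import Cfsg.Agent.H4.Fischer6

/-! Fischer's theory: the unitary case. -/

set_option autoImplicit false

namespace CfsgH4

open Subgroup CfsgH5

variable {G : Type*} [Group G]

/-- the elements of the unipotent radical moving `f` inside its perp -/
def SS (D : Set G) (x f : G) (ι : G → F4 → G) : Set G :=
  {s | s = 1 ∨ ∃ y ∈ MM D x f, ∃ a, a ≠ 0 ∧ s = x * (y * ι y a)}

/-- the unitary form over `F4` -/
noncomputable abbrev TU (m : ℕ) := tvU f4_p4 m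

/-- linear coordinates -/
structure UW (D : Set G) (x f : G) (ι : G → F4 → G) {m : ℕ} (v W : G → Fin m → F4) : Prop
    extends Uni D x f ι where
  kapW : ∀ q ∈ QQ D x f ι, ∀ z ∈ MM D x f, kap ι q z = (TU m).h (v z) (W q)
  Wgen : ∀ y ∈ MM D x f, ∀ a, W (y * ι y a) = a ^ 2 • v y
  span : ∀ u u', (∀ z ∈ MM D x f, (TU m).h (v z) u = (TU m).h (v z) u') → u = u'
  Wsurj : ∀ u, ∃ q ∈ QQ D x f ι, W q = u

theorem Uni.exists_UW [Finite G] {D : Set G} {x f : G} {ι₀ : G → F4 → G} (U₀ : Uni D x f ι₀) :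
    ∃ (ι : G → F4 → G) (m : ℕ) (v W : G → Fin m → F4), UW D x f ι v W := by
  classical
  obtain ⟨ι, U, hl⟩ := U₀.exists_lin
  have := Fintype.ofFinite (MM D x f)
  obtain ⟨m, v, h1, h2⟩ := exists_gram f4_p4 f4_w (M := MM D x f)
    (fun z y => kap ι (y * ι y 1) z) fun y z => by
      by_cases h : Commute (y : G) z
      · rw [(U.kap_zero (U.gen_mem y.2 1) z.2).2 (h.mul_left
          (U.ιc y.2 1 z.2.1 z.2.2.1 h.symm).symm), (U.kap_zero (U.gen_mem z.2 1) y.2).2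
          (h.symm.mul_left (U.ιc z.2 1 y.2.1 y.2.2.1 h).symm)]
        simp
      · have h3 := U.Phi_symm y.2 z.2 h 1
        rw [hl _ z.2 _ y.2] at h3
        revert h3
        generalize kap ι (y * ι y 1) z = a, kap ι (z * ι z 1) y = b
        revert a b; decide
  set T := TU m
  replace h1 : ∀ z y, T.h (v z) (v y) = kap ι (y * ι y 1) z := h1
  have h3 : ∀ u u', (∀ z, T.h (v z) u = T.h (v z) u') → u = u' := fun u u' h => by
    rw [← add_left_inj u', T.add_self]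
    refine T.nondeg _ fun y => T.perp ?_
    have hy : y ∈ Submodule.span F4 (Set.range v) := h2 ▸ Submodule.mem_top
    induction hy using Submodule.span_induction with
    | mem y hy => obtain ⟨z, rfl⟩ := hy; rw [T.add_right, h, ← T.add_right, T.add_self, T.zero_right]
    | zero => exact T.zero_left _
    | add f f' _ _ h h' => rw [T.add_left, h, h', add_zero]
    | smul c f _ h => rw [T.smul_left, h, mul_zero]
  have h4 : ∀ (y : MM D x f) a (z : MM D x f), kap ι (y * ι y a) z = T.h (v z) (a ^ 2 • v y) :=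
    fun y a z => by rw [hl _ y.2 _ z.2, T.smul_right, h1, ← pow_mul, f4_p4, mul_comm]
  have h5 : ∀ q, ∃ u, q ∈ QQ D x f ι → ∀ z : MM D x f, kap ι q z = T.h (v z) u := fun q => by
    by_cases hq : q ∈ QQ D x f ι
    swap; · exact ⟨0, fun h => absurd h hq⟩
    suffices ∃ u, ∀ z : MM D x f, kap ι q z = T.h (v z) u from this.imp fun _ h _ => h
    induction hq using closure_induction'' with
    | one => exact ⟨0, fun z => by
        rw [T.zero_right, U.kap_zero (one_mem _) z.2]; exact Commute.one_left _⟩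
    | mul a b ha hb h h' =>
      obtain ⟨u, hu⟩ := h
      obtain ⟨u', hu'⟩ := h'
      exact ⟨u + u', fun z => by rw [U.kap_mul ha hb z.2, hu, hu', T.add_right]⟩
    | mem q hq =>
      rcases hq with rfl | ⟨y, hy, a, rfl⟩
      · exact ⟨0, fun z => by rw [T.zero_right, U.kap_zero U.x_mem z.2]; exact z.2.2.1⟩
      · exact ⟨_, h4 ⟨y, hy⟩ a⟩
    | inv_mem q hq =>
      rcases hq with rfl | ⟨y, hy, a, rfl⟩
      · exact ⟨0, fun z => by
          rw [T.zero_right, U.kap_zero (inv_mem U.x_mem) z.2]; exact z.2.2.1.inv_left⟩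
      · rw [U.gen_inv hy]; exact ⟨_, h4 ⟨y, hy⟩ a⟩
  choose W hW using h5
  have h6 : ∀ (y : MM D x f) a, W (y * ι y a) = a ^ 2 • v y := fun y a =>
    h3 _ _ fun z => by rw [← hW _ (U.gen_mem y.2 a), h4]
  refine ⟨ι, m, fun g => if h : g ∈ MM D x f then v ⟨g, h⟩ else 0, W, U, fun q hq z hz => ?_,
    fun y hy a => ?_, fun u u' h => h3 _ _ fun z => ?_, fun u => ?_⟩
  · rw [dif_pos hz]; exact hW q hq ⟨z, hz⟩
  · rw [dif_pos hy]; exact h6 ⟨y, hy⟩ a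
  · simpa only [dif_pos z.2] using h z z.2
  suffices ∀ c : F4, ∃ q ∈ QQ D x f ι, W q = c • u by simpa using this 1
  have hu : u ∈ Submodule.span F4 (Set.range v) := h2 ▸ Submodule.mem_top
  induction hu using Submodule.span_induction with
  | mem u hu =>
    obtain ⟨y, rfl⟩ := hu
    exact fun c => ⟨_, U.gen_mem y.2 (c ^ 2), by rw [h6, ← pow_mul, f4_p4]⟩
  | zero => exact fun c => ⟨1, one_mem _, h3 _ _ fun z => by
      rw [← hW 1 (one_mem _), smul_zero, T.zero_right, U.kap_zero (one_mem _) z.2]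
      exact Commute.one_left _⟩
  | add u u' _ _ h h' =>
    intro c
    obtain ⟨q, hq, h⟩ := h c
    obtain ⟨r, hr, h'⟩ := h' c
    exact ⟨q * r, mul_mem hq hr, h3 _ _ fun z => by
      rw [← hW _ (mul_mem hq hr), U.kap_mul hq hr z.2, hW q hq, hW r hr, h, h', smul_add,
        T.add_right]⟩
  | smul c f _ h => exact fun d => by simpa only [smul_smul] using h (d * c)

namespace Uni

variable {D : Set G} {x f : G} {ι : G → F4 → G} (U : Uni D x f ι)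
include U

theorem S_Q {s : G} (hs : s ∈ SS D x f ι) : s ∈ QQ D x f ι := by
  rcases hs with rfl | ⟨y, hy, a, -, rfl⟩
  exacts [one_mem _, mul_mem U.x_mem (U.gen_mem hy a)]

theorem S_sq {s : G} (hs : s ∈ SS D x f ι) : s * s = 1 := by
  rcases hs with rfl | ⟨y, hy, a, -, rfl⟩
  · simp
  · rw [← pow_two]
    exact sq_of_commute (U.sq U.hx) (U.gen_sq hy a) (U.Q_x (U.gen_mem hy a)).symm

theorem S_inv {s : G} (hs : s ∈ SS D x f ι) : s⁻¹ = s := inv_eq_of_mul_eq_one_right (U.S_sq hs)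

variable [Finite G]

theorem gen_f {y : G} (hy : y ∈ MM D x f) {a : F4} (ha : a ≠ 0) :
    x * (y * ι y a) * f * (x * (y * ι y a))⁻¹ ∈ ln D f y := by
  have h1 := U.ln_conj y (U.L1 U.hx U.hf U.hxf hy.1 hy.2.1 hy.2.2 (U.mem y hy a) (U.ne y hy a)
    (U.ιne hy ha))
  rw [conj_eq_of_commute hy.2.2.symm, conj_eq_of_commute (Commute.refl y)] at h1
  rw [← mul_assoc, hy.2.1.eq, mul_inv_rev, mul_inv_rev, U.inv U.hx, U.inv (U.ιD hy a)]
  simpa only [mul_assoc] using h1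

theorem S_f {s : G} (hs : s ∈ SS D x f ι) : Commute f (s * f * s⁻¹) := by
  rcases hs with rfl | ⟨y, hy, a, ha, rfl⟩
  · simp
  · exact (U.gen_f hy ha).2 f U.hf (Commute.refl f) hy.2.2

theorem S_of {q : G} (hq : q ∈ QQ D x f ι) (h : Commute f (q * f * q⁻¹)) : q ∈ SS D x f ι := by
  by_cases h1 : q * f * q⁻¹ = f
  · exact Or.inl (U.semireg hq (commute_of_conj_eq h1))
  have hr := U.conj q f U.hf
  have h2 : ¬ Commute x (q * f * q⁻¹) := by rw [commute_conj_right (U.Q_x hq)]; exact U.hxf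
  have hl := isLn_ln U.hf hr h1 h
  obtain ⟨y, hy, y1⟩ := U.one hl U.hx
  have y2 := hl.comm (left_mem_ln U.hf _) hy
  have y3 := hl.comm (right_mem_ln f hr) hy
  have y4 : q * f * q⁻¹ ∈ ln D f y :=
    U.eq_ln hl (left_mem_ln U.hf _) hy (fun h => U.hxf (h ▸ y1)) ▸ right_mem_ln f hr
  have hM : y ∈ MM D x f := ⟨hy.1, y1, y2⟩
  have hfx : ¬ Commute f x := fun h => U.hxf h.symm
  have key : ∀ r ∈ D, ¬ Commute x r → r ≠ f → Commute f r → Commute r y → r ∈ ln D f y →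
      ∃ a, a ≠ 0 ∧ x * (y * ι y a) * f * (x * (y * ι y a))⁻¹ = r := by
    intro r hr h2 h1 h y3 y4
    obtain ⟨a, ha⟩ := U.surj y hM _ (U.L1 U.hf U.hx hfx hy.1 y2 y1 y4 h1 fun h => h2 (h ▸ y1))
      fun h3 => h1 (U.cj_inj U.hx hr U.hf h2 U.hxf (by
        rw [← h3]; nth_rewrite 1 [h3]
        rw [show f * (f * r * x * r * f) * f = f * f * (r * x * r) * (f * f) by group, U.sq U.hf]
        simp))
    refine ⟨a, fun h3 => U.Mne hM ?_, ?_⟩
    · rw [h3, U.zero y hM, show f * r * x * r * f = f * r * x * (f * r)⁻¹ by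
        rw [mul_inv_rev, U.inv hr, U.inv U.hf, mul_assoc],
        ← conj_eq_of_commute (y2.mul_left y3)] at ha
      simpa using ha
    · rw [← mul_assoc, y1.eq, mul_inv_rev, mul_inv_rev, U.inv U.hx, U.inv (U.ιD hM a), ha]
      have sx := U.sq U.hx; have sf := U.sq U.hf; have sr := U.sq hr
      have r0 := U.cube U.hf U.hx hfx; have r1 := U.cube U.hx hr h2; have r2 := U.two U.hf hr h
      refine Eq.trans ?_ ((congrArg (y * · * y⁻¹) 
        (show x * f * r * x * r * f * f * f * r * x * r * f * x = r from weq [f, x, r] ⟨sf, sx,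
        sr⟩ [([0, 1], 3), ([1, 2], 3), ([0, 2], 2)] ⟨r0, r1, r2⟩ [1, 0, 2, 1, 2, 0, 0, 0, 2, 1,
        2, 0, 1] [2] [(4, 2, 0, false), (3, 0, 0, false), (5, 2, 1, false), (4, 1, 1, false),
        (1, 2, 1, false)] (by decide))).trans
        (conj_eq_of_commute y3.symm))
      simp only [mul_assoc]
  obtain ⟨a, ha, h3⟩ := key _ hr h2 h1 h y3 y4
  have h4 := mul_mem U.x_mem (U.gen_mem hM a)
  refine Or.inr ⟨y, hM, a, ha, (inv_mul_eq_one.1 (U.semireg (mul_mem (inv_mem h4) hq)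
    (commute_of_conj_eq ?_))).symm⟩
  generalize x * (y * ι y a) = s at h3
  rw [show s⁻¹ * q * f * (s⁻¹ * q)⁻¹ = s⁻¹ * (q * f * q⁻¹) * s by group, ← h3]
  group

theorem ι_five {y : G} (hy : y ∈ MM D x f) {a b c d : F4} (h1 : a ≠ b) (h2 : a ≠ c) (h3 : a ≠ d)
    (h4 : b ≠ c) (h5 : b ≠ d) (h6 : c ≠ d) : ι y a * ι y b * ι y c * ι y d = x :=
  U.five_prod (U.lnM hy) (U.h5 _ (U.lnM hy)) (U.mem y hy a) (U.mem y hy b) (U.mem y hy c)
    (U.mem y hy d) (left_mem_ln U.hx y) ((U.inj y hy).ne h1) ((U.inj y hy).ne h2)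
    ((U.inj y hy).ne h3) (U.ne y hy a) ((U.inj y hy).ne h4) ((U.inj y hy).ne h5) (U.ne y hy b)
    ((U.inj y hy).ne h6) (U.ne y hy c) (U.ne y hy d)

end Uni

/-- normal forms in the unipotent radical -/
def Gam (D : Set G) (x f : G) (ι : G → F4 → G) {m : ℕ} (W : G → Fin m → F4) (q : G) (l : F4) :
    Prop := ∃ s ∈ SS D x f ι, ∃ t ∈ SS D x f ι,
  (q = s * t ∧ l = (TU m).h (W t) (W s)) ∨ (q = s * t * x ∧ l = (TU m).h (W t) (W s) + 1)

namespace UW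

variable {D : Set G} {x f : G} {ι : G → F4 → G} {m : ℕ} {v W : G → Fin m → F4}
  (U : UW D x f ι v W) [Finite G]
include U

theorem W_mul {q r : G} (hq : q ∈ QQ D x f ι) (hr : r ∈ QQ D x f ι) : W (q * r) = W q + W r :=
  U.span _ _ fun z hz => by
    rw [← U.kapW _ (mul_mem hq hr) z hz, U.kap_mul hq hr hz, U.kapW q hq z hz, U.kapW r hr z hz,
      TvG.add_right]

theorem W_one : W 1 = 0 := by simpa using U.W_mul (one_mem _) (one_mem _)

theorem W_x : W x = 0 := U.span _ _ fun z hz => by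
  rw [← U.kapW _ U.x_mem z hz, TvG.zero_right, U.kap_zero U.x_mem hz]; exact hz.2.1

theorem W_inv {q : G} (hq : q ∈ QQ D x f ι) : W q⁻¹ = W q := by
  rw [← add_left_inj (W q), ← U.W_mul (inv_mem hq) hq, inv_mul_cancel, U.W_one, (TU m).add_self]

theorem W_mulx {q : G} (hq : q ∈ QQ D x f ι) : W (q * x) = W q := by
  rw [U.W_mul hq U.x_mem, U.W_x, add_zero]

theorem W_S {y : G} (hy : y ∈ MM D x f) (a : F4) : W (x * (y * ι y a)) = a ^ 2 • v y := by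
  rw [U.W_mul U.x_mem (U.gen_mem hy a), U.W_x, zero_add, U.Wgen y hy]

theorem hvv {y z : G} (hy : y ∈ MM D x f) (hz : z ∈ MM D x f) :
    (TU m).h (v z) (v y) = 0 ↔ Commute y z := by
  have := U.kapW _ (U.gen_mem hy 1) z hz
  rw [U.Wgen y hy, one_pow, one_smul] at this
  rw [← this, U.kap_zero (U.gen_mem hy 1) hz]
  exact ⟨fun h => ((U.commute_mul_iff hy.1 (U.ιD hy 1) hz.1 (U.ιne hy one_ne_zero).symm
    (U.ιy hy 1)).1 h.symm).1.symm, fun h => h.mul_left (U.ιc hy 1 hz.1 hz.2.1 h.symm).symm⟩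

theorem S_iso {s : G} (hs : s ∈ SS D x f ι) : (TU m).h (W s) (W s) = 0 := by
  rcases hs with rfl | ⟨y, hy, a, -, rfl⟩
  · rw [U.W_one, TvG.zero_left]
  · rw [U.W_S hy, TvG.smul_left, TvG.smul_right, (U.hvv hy hy).2 (Commute.refl y)]; simp

theorem merge0 {s t : G} (hs : s ∈ SS D x f ι) (ht : t ∈ SS D x f ι)
    (h : (TU m).h (W t) (W s) = 0) : s * t ∈ SS D x f ι := by
  rcases id hs with rfl | ⟨y, hy, a, ha, h1⟩
  · rwa [one_mul]
  rcases id ht with rfl | ⟨z, hz, b, hb, h2⟩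
  · rwa [mul_one]
  rw [h1, h2, U.W_S hy, U.W_S hz, TvG.smul_left, TvG.smul_right] at h
  simp only [mul_eq_zero, pow_eq_zero_iff, ne_eq, OfNat.ofNat_ne_zero, not_false_eq_true, ha, hb,
    false_or, U.hvv hy hz] at h
  have h3 := h1 ▸ U.gen_f hy ha
  have h4 := h2 ▸ U.gen_f hz hb
  refine U.S_of (mul_mem (U.S_Q hs) (U.S_Q ht)) ?_
  have h5 := (h4.2 _ h3.1 (U.S_f hs).symm (h3.2 z hz.1 hz.2.2.symm h.symm).symm).conj s
  rwa [show s * (s * f * s⁻¹) * s⁻¹ = s * s * f * (s * s)⁻¹ by group, U.S_sq hs, one_mul, inv_one,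
    mul_one, show s * (t * f * t⁻¹) * s⁻¹ = s * t * f * (s * t)⁻¹ by group] at h5

theorem merge1 {s t : G} (hs : s ∈ SS D x f ι) (ht : t ∈ SS D x f ι)
    (h : (TU m).h (W t) (W s) = 1) : s * t * x ∈ SS D x f ι := by
  rcases id hs with rfl | ⟨y, hy, a, ha, h1⟩
  · rw [U.W_one, TvG.zero_right] at h; exact absurd h zero_ne_one
  rcases id ht with rfl | ⟨z, hz, b, hb, rfl⟩
  · rw [U.W_one, TvG.zero_left] at h; exact absurd h zero_ne_one
  have h2 : ¬ Commute y z := fun h2 => by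
    rw [h1, U.W_S hy, U.W_S hz, TvG.smul_left, TvG.smul_right, (U.hvv hy hz).2 h2] at h
    simp at h
  rw [U.W_S hz, TvG.smul_left, ← U.kapW s (U.S_Q hs) z hz] at h
  have h3 := U.tr0 (U.S_Q hs) hz
  rw [(by decide : ∀ b k : F4, b ^ 2 * k = 1 → k = b) _ _ h, U.S_inv hs] at h3
  have h4 := U.ln_conj z (U.mem y hy a)
  rw [conj_eq_of_commute hz.2.1.symm, U.inv hz.1] at h4
  obtain ⟨c, hc⟩ := U.surj _ (U.Mcj hz hy) _ h4 fun h => U.ne y hy a (by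
    rw [← conj_eq_of_commute hz.2.1.symm, U.inv hz.1] at h; simpa using h)
  refine Or.inr ⟨_, U.Mcj hz hy, c, fun h5 => U.ιne hy ha ?_, ?_⟩
  · rw [h5, U.zero _ (U.Mcj hz hy)] at hc; simpa using hc.symm
  rw [hc, ← h3, h1]
  have sy := U.sq hy.1; have sz := U.sq hz.1; have su := U.sq (U.ιD hy a); have sx := U.sq U.hx
  have r0 := U.cube hy.1 hz.1 h2
  have r1 := U.cube hz.1 (U.ιD hy a) (U.nc' hz hy (fun h1 => h2 h1.symm) a)
  have r2 := U.two hy.1 (U.ιD hy a) (U.ιy hy a)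
  have r3 := U.two U.hx hy.1 hy.2.1; have r4 := U.two U.hx hz.1 hz.2.1
  have r5 := U.two U.hx (U.ιD hy a) (U.ιx hy a)
  simpa only [mul_assoc] using 
        (show x * y * (ι y a) * x * z * x * y * (ι y a) * z * x * y * (ι y a) * x = x * z * y *
        z * z * (ι y a) * z from weq [y, z, ι y a, x] ⟨sy, sz, su, sx⟩ [([0, 1], 3), ([1, 2],
        3), ([0, 2], 2), ([3, 0], 2), ([3, 1], 2), ([3, 2], 2)] ⟨r0, r1, r2, r3, r4, r5⟩ [3, 0,
        2, 3, 1, 3, 0, 2, 1, 3, 0, 2, 3] [3, 1, 0, 1, 1, 2, 1] [(3, 4, 1, false), (7, 3, 1,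
        false), (8, 5, 1, false), (4, 2, 1, false), (2, 1, 0, false), (4, 0, 0, false), (5, 1,
        1, false), (3, 2, 0, false), (1, 0, 1, false)] (by decide))

theorem swap1 {s t : G} (hs : s ∈ SS D x f ι) (ht : t ∈ SS D x f ι)
    (h0 : (TU m).h (W t) (W s) ≠ 0) (h1 : (TU m).h (W t) (W s) ≠ 1) : s * t = t * s * x := by
  rcases id ht with rfl | ⟨z, hz, b, hb, h2⟩
  · rw [U.W_one, TvG.zero_left] at h0; exact absurd rfl h0
  have hq := U.S_Q hs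
  rw [h2, U.W_S hz, TvG.smul_left, ← U.kapW s hq z hz] at h0 h1
  have h3 : s * t * s⁻¹ = x * (ι z (kap ι s z) * ι z (b + kap ι s z)) := by
    rw [← U.tr hq hz, ← U.tr0 hq hz, h2, ← conj_eq_of_commute (U.Q_x hq)]
    rw [conj_eq_of_commute (U.Q_x hq)]
    nth_rewrite 2 [← conj_eq_of_commute (U.Q_x hq)]
    group
  generalize kap ι s z = k at *
  obtain ⟨k1, k2, k3, k4, k5⟩ := (by decide : ∀ b k : F4, b ≠ 0 → b ^ 2 * k ≠ 0 → b ^ 2 * k ≠ 1 →
    k ≠ b + k ∧ k ≠ 0 ∧ k ≠ b ∧ b + k ≠ 0 ∧ b + k ≠ b) b k hb h0 h1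
  have h4 := U.ι_five hz k1 k2 k3 k4 k5 hb.symm
  have h5 : s * t * s⁻¹ * t = x := by
    rw [h3, h2, ((U.ιx hz k).mul_right (U.ιx hz _)).eq, mul_assoc, ← mul_assoc x, U.sq U.hx, one_mul,
      ← mul_assoc, ← h4, U.zero z hz]
  rw [(U.Q_x (mul_mem (U.S_Q ht) hq)).eq, ← h5, mul_assoc, ← mul_assoc t t, U.S_sq ht]
  group

theorem split {s : G} (hs : s ∈ SS D x f ι) {c : F4} (h0 : c ≠ 0) (h1 : c ≠ 1) :
    ∃ u ∈ SS D x f ι, ∃ u' ∈ SS D x f ι, s = u * u' ∧ W u = c • W s ∧ W u' = (c + 1) • W s := by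
  rcases id hs with rfl | ⟨y, hy, a, ha, rfl⟩
  · exact ⟨1, hs, 1, hs, by simp [U.W_one]⟩
  clear hs
  refine ⟨_, Or.inr ⟨y, hy, c ^ 2 * a, by revert c a; decide, rfl⟩, _,
    Or.inr ⟨y, hy, (c + 1) ^ 2 * a, by revert c a; decide, rfl⟩, ?_,
    by rw [U.W_S hy, U.W_S hy, smul_smul, mul_pow, ← pow_mul, f4_p4],
    by rw [U.W_S hy, U.W_S hy, smul_smul, mul_pow, ← pow_mul, f4_p4]⟩
  have h4 := U.ι_five hy (a := c ^ 2 * a) (b := (c + 1) ^ 2 * a) (c := a) (d := 0)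
    (by revert c a; decide) (by revert c a; decide) (by revert c a; decide) (by revert c a; decide)
    (by revert c a; decide) ha
  rw [U.zero y hy] at h4
  rw [(U.Q_x (U.gen_mem hy (c ^ 2 * a))).symm.eq, mul_assoc, ← mul_assoc x x, U.sq U.hx, one_mul,
    (U.ιy hy (c ^ 2 * a)).eq, mul_assoc, ← mul_assoc y y, U.sq hy.1, one_mul]
  nth_rewrite 1 [← h4]
  rw [mul_assoc, ← mul_assoc y y, U.sq hy.1, one_mul, mul_assoc, U.sq (U.ιD hy a), mul_one]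

omit [Finite G] in
theorem Gam_x {q : G} {l : F4} (h : Gam D x f ι W q l) : Gam D x f ι W (q * x) (l + 1) := by
  obtain ⟨s, hs, t, ht, ⟨rfl, rfl⟩ | ⟨rfl, rfl⟩⟩ := h
  · exact ⟨s, hs, t, ht, Or.inr ⟨rfl, rfl⟩⟩
  · exact ⟨s, hs, t, ht, Or.inl ⟨by rw [mul_assoc, U.sq U.hx, mul_one], by
      linear_combination f4_two f4_p4⟩⟩

omit [Finite G] in
theorem Gam_Q {q : G} {l : F4} (h : Gam D x f ι W q l) : q ∈ QQ D x f ι := by
  obtain ⟨s, hs, t, ht, ⟨rfl, -⟩ | ⟨rfl, -⟩⟩ := h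
  exacts [mul_mem (U.S_Q hs) (U.S_Q ht), mul_mem (mul_mem (U.S_Q hs) (U.S_Q ht)) U.x_mem]

omit U [Finite G] in
theorem Gam_st {s t : G} (hs : s ∈ SS D x f ι) (ht : t ∈ SS D x f ι) :
    Gam D x f ι W (s * t) ((TU m).h (W t) (W s)) := ⟨s, hs, t, ht, Or.inl ⟨rfl, rfl⟩⟩

theorem Gam_S {s : G} (hs : s ∈ SS D x f ι) : Gam D x f ι W s 0 := by
  simpa only [mul_one, U.W_one, TvG.zero_left] using Gam_st (W := W) hs (Or.inl rfl)

theorem swap {s t : G} (hs : s ∈ SS D x f ι) (ht : t ∈ SS D x f ι) :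
    (s * t = t * s ∧ (TU m).h (W t) (W s) = (TU m).h (W s) (W t)) ∨
      (s * t = t * s * x ∧ (TU m).h (W t) (W s) = (TU m).h (W s) (W t) + 1) := by
  rw [(TU m).symm (W t)]
  by_cases h0 : (TU m).h (W t) (W s) = 0
  · refine Or.inl ⟨?_, by simp [h0]⟩
    rw [← U.S_inv (U.merge0 hs ht h0), mul_inv_rev, U.S_inv hs, U.S_inv ht]
  by_cases h1 : (TU m).h (W t) (W s) = 1
  · refine Or.inl ⟨mul_right_cancel (b := x) ?_, by simp [h1]⟩
    rw [← U.S_inv (U.merge1 hs ht h1), mul_inv_rev, mul_inv_rev, U.S_inv hs, U.S_inv ht, U.inv U.hx,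
      (U.Q_x (mul_mem (U.S_Q ht) (U.S_Q hs))).eq]
  · exact Or.inr ⟨U.swap1 hs ht h0 h1,
      (by decide : ∀ a : F4, a ≠ 0 → a ≠ 1 → a = a ^ 2 + 1) _ h0 h1⟩

theorem Gam3 {s t r : G} (hs : s ∈ SS D x f ι) (ht : t ∈ SS D x f ι) (hr : r ∈ SS D x f ι) :
    Gam D x f ι W (s * t * r)
      ((TU m).h (W t) (W s) + (TU m).h (W r) (W s) + (TU m).h (W r) (W t)) := by
  set T := TU m
  let P : G → G → G → Prop := fun s t r => Gam D x f ι W (s * t * r)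
    (T.h (W t) (W s) + T.h (W r) (W s) + T.h (W r) (W t))
  have p12 : ∀ {s t r}, s ∈ SS D x f ι → t ∈ SS D x f ι → r ∈ SS D x f ι → P t s r → P s t r := by
    intro s t r hs ht hr h
    rcases U.swap hs ht with ⟨h1, h2⟩ | ⟨h1, h2⟩
    · simp only [P]; rw [h1, h2, add_right_comm]; exact h
    · have := U.Gam_x h
      simp only [P]
      rw [h1, h2, mul_assoc _ x, ← (U.Q_x (U.S_Q hr)).eq, ← mul_assoc]
      convert this using 1; ring
  have p23 : ∀ {s t r}, t ∈ SS D x f ι → r ∈ SS D x f ι → P s r t → P s t r := by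
    intro s t r ht hr h
    rcases U.swap ht hr with ⟨h1, h2⟩ | ⟨h1, h2⟩
    · simp only [P]; rw [mul_assoc, h1, h2, ← mul_assoc, add_comm (T.h (W t) _)]; exact h
    · have := U.Gam_x h
      simp only [P]
      rw [mul_assoc, h1, h2, ← mul_assoc, ← mul_assoc]
      convert this using 1; ring
  have pm : ∀ {s t r}, s ∈ SS D x f ι → t ∈ SS D x f ι → r ∈ SS D x f ι →
      (T.h (W t) (W s) = 0 ∨ T.h (W t) (W s) = 1) → P s t r := by
    intro s t r hs ht hr h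
    have h1 := U.W_mul (U.S_Q hs) (U.S_Q ht)
    rcases h with h | h
    · have := Gam_st (W := W) (U.merge0 hs ht h) hr
      simp only [P]
      rwa [h, zero_add, ← T.add_right, ← h1]
    · have := U.Gam_x (Gam_st (W := W) (U.merge1 hs ht h) hr)
      rw [mul_assoc _ r, (U.Q_x (U.S_Q hr)).eq, ← mul_assoc, mul_assoc _ x x, U.sq U.hx, mul_one,
        U.W_mulx (mul_mem (U.S_Q hs) (U.S_Q ht)), h1, T.add_right] at this
      simp only [P]
      convert this using 1; rw [h]; ring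
  have ps : ∀ {s t r}, s ∈ SS D x f ι → t ∈ SS D x f ι → r ∈ SS D x f ι →
      T.h (W r) (W s) ≠ 0 → T.h (W r) (W s) ≠ 1 → T.h (W r) (W t) = T.h (W r) (W s) ^ 2 →
      P s t r := by
    intro s t r hs ht hr h0 h1 h2
    obtain ⟨k1, k2, k3, k4, k5, k6, k7⟩ := (by decide : ∀ a : F4, a ≠ 0 → a ≠ 1 → a ^ 2 ≠ 0 ∧
      a ^ 2 ≠ 1 ∧ a ^ 2 * a = 1 ∧ (a ^ 2 + 1) * a ^ 2 = 1 ∧ a ^ 2 * a ^ 2 ≠ 0 ∧ a ^ 2 * a ^ 2 ≠ 1 ∧
      a + a ^ 2 = (a ^ 2) ^ 2 * (a ^ 2) ^ 2 + (a ^ 2 + 1) * a + 1) _ h0 h1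
    obtain ⟨u, hu, u', hu', rfl, w1, w2⟩ := U.split hr k1 k2
    have e1 := U.merge1 hs hu (by rw [w1, T.smul_left, k3])
    have e2 := U.merge1 ht hu' (by rw [w2, T.smul_left, h2, k4])
    have e3 := U.swap1 ht hu (by rwa [w1, T.smul_left, h2]) (by rwa [w1, T.smul_left, h2])
    have := U.Gam_x (Gam_st (W := W) e1 e2)
    have hQ := fun {a b : G} (ha : a ∈ SS D x f ι) (hb : b ∈ SS D x f ι) =>
      mul_mem (U.S_Q ha) (U.S_Q hb)
    rw [U.W_mulx (hQ hs hu), U.W_mulx (hQ ht hu'), U.W_mul (U.S_Q hs) (U.S_Q hu),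
      U.W_mul (U.S_Q ht) (U.S_Q hu'), mul_assoc _ _ x, mul_assoc _ x, mul_assoc _ x, U.sq U.hx,
      mul_one, w1, w2, T.add_left, T.add_right, T.add_right, T.smul_left, T.smul_left, T.smul_right,
      T.smul_right, U.S_iso hr, T.symm (W (u * u')) (W t), h2] at this
    simp only [P]
    convert this using 1
    · rw [mul_assoc s t, ← mul_assoc t, e3, mul_assoc u, (U.Q_x (U.S_Q ht)).eq]
      simp only [mul_assoc]
    · rw [h2, add_assoc, k7]; ring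
  change P s t r
  by_cases h1 : T.h (W t) (W s) = 0 ∨ T.h (W t) (W s) = 1
  · exact pm hs ht hr h1
  by_cases h2 : T.h (W r) (W s) = 0 ∨ T.h (W r) (W s) = 1
  · exact p23 ht hr (pm hs hr ht h2)
  by_cases h3 : T.h (W r) (W t) = 0 ∨ T.h (W r) (W t) = 1
  · exact p12 hs ht hr (p23 hs hr (pm ht hr hs h3))
  rw [not_or] at h1 h2 h3
  obtain ⟨k1, k2, k3 | k3 | k3⟩ := (by decide : ∀ a b c : F4, a ≠ 0 → a ≠ 1 → b ≠ 0 → b ≠ 1 →
    c ≠ 0 → c ≠ 1 → a ^ 2 ≠ 0 ∧ a ^ 2 ≠ 1 ∧ (c = b ^ 2 ∨ b ^ 2 = (a ^ 2) ^ 2 ∨ c ^ 2 = a ^ 2))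
    _ _ _ h1.1 h1.2 h2.1 h2.2 h3.1 h3.2
  · exact ps hs ht hr h2.1 h2.2 k3
  · rw [← T.symm, ← T.symm (W t)] at k3
    rw [← T.symm] at k1 k2
    exact p12 hs ht hr (p23 hs hr (ps ht hr hs k1 k2 k3))
  · rw [← T.symm] at k3
    exact p23 ht hr (ps hs hr ht h1.1 h1.2 k3)

theorem Gam_mulS {q r : G} {l : F4} (h : Gam D x f ι W q l) (hr : r ∈ SS D x f ι) :
    Gam D x f ι W (q * r) (l + (TU m).h (W r) (W q)) := by
  obtain ⟨s, hs, t, ht, ⟨rfl, rfl⟩ | ⟨rfl, rfl⟩⟩ := h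
  · rw [U.W_mul (U.S_Q hs) (U.S_Q ht), TvG.add_right, ← add_assoc]; exact U.Gam3 hs ht hr
  · rw [U.W_mulx (mul_mem (U.S_Q hs) (U.S_Q ht)), U.W_mul (U.S_Q hs) (U.S_Q ht), TvG.add_right,
      mul_assoc _ x, ← (U.Q_x (U.S_Q hr)).eq, ← mul_assoc]
    convert U.Gam_x (U.Gam3 hs ht hr) using 1; ring

theorem Gam_mul {q r : G} {l k : F4} (h : Gam D x f ι W q l) (h' : Gam D x f ι W r k) :
    Gam D x f ι W (q * r) (l + k + (TU m).h (W r) (W q)) := by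
  obtain ⟨s, hs, t, ht, h1⟩ := h'
  have h2 := U.Gam_mulS (U.Gam_mulS h hs) ht
  rw [U.W_mul (U.Gam_Q h) (U.S_Q hs), TvG.add_right] at h2
  rcases h1 with ⟨rfl, rfl⟩ | ⟨rfl, rfl⟩
  · rw [U.W_mul (U.S_Q hs) (U.S_Q ht), TvG.add_left, ← mul_assoc]
    convert h2 using 1; ring
  · rw [U.W_mulx (mul_mem (U.S_Q hs) (U.S_Q ht)), U.W_mul (U.S_Q hs) (U.S_Q ht), TvG.add_left,
      ← mul_assoc, ← mul_assoc]
    convert U.Gam_x h2 using 1; ring

theorem Gam_norm {q : G} {l : F4} (h : Gam D x f ι W q l) : l + l ^ 2 = (TU m).h (W q) (W q) := by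
  obtain ⟨s, hs, t, ht, ⟨rfl, rfl⟩ | ⟨rfl, rfl⟩⟩ := h
  · rw [U.W_mul (U.S_Q hs) (U.S_Q ht), TvG.add_left, TvG.add_right, TvG.add_right, U.S_iso hs,
      U.S_iso ht, TvG.symm _ (W t)]
    ring
  · rw [U.W_mulx (mul_mem (U.S_Q hs) (U.S_Q ht)), U.W_mul (U.S_Q hs) (U.S_Q ht), TvG.add_left,
      TvG.add_right, TvG.add_right, U.S_iso hs, U.S_iso ht, TvG.symm _ (W t)]
    linear_combination ((TU m).h (W t) (W s) + 1) * f4_two f4_p4

omit [Finite G] in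
theorem Gam_inv {q : G} {l : F4} (h : Gam D x f ι W q l) : Gam D x f ι W q⁻¹ (l ^ 2) := by
  obtain ⟨s, hs, t, ht, ⟨rfl, rfl⟩ | ⟨rfl, rfl⟩⟩ := h
  · rw [mul_inv_rev, U.S_inv hs, U.S_inv ht, ← TvG.symm]; exact Gam_st ht hs
  · refine ⟨t, ht, s, hs, Or.inr ⟨?_, ?_⟩⟩
    · rw [mul_inv_rev, mul_inv_rev, U.S_inv hs, U.S_inv ht, U.inv U.hx,
        (U.Q_x (mul_mem (U.S_Q ht) (U.S_Q hs))).eq]
    · rw [TvG.symm _ (W t)]; linear_combination (TU m).h (W t) (W s) * f4_two f4_p4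

theorem Gam_exists {q : G} (hq : q ∈ QQ D x f ι) : ∃ l, Gam D x f ι W q l := by
  have h1 : ∀ q ∈ {q | q = x ∨ ∃ y ∈ MM D x f, ∃ a, q = y * ι y a}, ∃ l, Gam D x f ι W q l := by
    rintro _ (rfl | ⟨y, hy, a, rfl⟩)
    · exact ⟨_, by simpa only [one_mul] using U.Gam_x (U.Gam_S (Or.inl rfl))⟩
    by_cases ha : a = 0
    · exact ⟨_, U.Gam_S (Or.inl (by rw [ha, U.zero y hy, U.sq hy.1]))⟩
    · have := U.Gam_x (U.Gam_S (Or.inr ⟨y, hy, a, ha, rfl⟩))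
      rw [mul_assoc, (U.Q_x (U.gen_mem hy a)).eq, ← mul_assoc, U.sq U.hx, one_mul] at this
      exact ⟨_, this⟩
  induction hq using closure_induction with
  | mem q hq => exact h1 q hq
  | one => exact ⟨_, U.Gam_S (Or.inl rfl)⟩
  | mul a b _ _ h h' => exact ⟨_, U.Gam_mul h.choose_spec h'.choose_spec⟩
  | inv a _ h => exact ⟨_, U.Gam_inv h.choose_spec⟩

theorem Sx {s : G} (hs : s ∈ SS D x f ι) : s * x ∉ SS D x f ι := fun h => by
  have h1 := U.S_f hs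
  have h2 := U.S_f h
  rw [← commute_conj_iff (g := s⁻¹), show s⁻¹ * (s * f * s⁻¹) * s⁻¹⁻¹ = f by group] at h1
  rw [← commute_conj_iff (g := s⁻¹), show s⁻¹ * (s * x * f * (s * x)⁻¹) * s⁻¹⁻¹ = x * f * x⁻¹ by
    group, U.inv U.hx, U.braid U.hx U.hf U.hxf, U.cj_right U.hf h1.symm,
    commute_conj_left (U.Q_x (inv_mem (U.S_Q hs)))] at h2
  exact U.hxf h2.symm

theorem Gam_uniq {q : G} {l k : F4} (h : Gam D x f ι W q l) (h' : Gam D x f ι W q k) : l = k := by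
  have h1 := U.Gam_mul (U.Gam_inv h) h'
  rw [inv_mul_cancel, U.W_inv (U.Gam_Q h), ← U.Gam_norm h] at h1
  obtain ⟨s, hs, t, ht, ⟨h2, h3⟩ | ⟨h2, h3⟩⟩ := h1
  · rw [eq_inv_of_mul_eq_one_left h2.symm, U.S_inv ht, U.S_iso ht] at h3
    linear_combination h3 - (l ^ 2 + k) * f4_two f4_p4
  · rw [mul_assoc] at h2
    refine absurd ?_ (U.Sx ht)
    rwa [eq_inv_of_mul_eq_one_right h2.symm, U.S_inv hs]

theorem Gam_zero {q : G} {l : F4} (h : Gam D x f ι W q l) : Commute f (q * f * q⁻¹) ↔ l = 0 := by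
  refine ⟨fun h1 => U.Gam_uniq h (U.Gam_S (U.S_of (U.Gam_Q h) h1)), fun h1 => U.S_f ?_⟩
  obtain ⟨s, hs, t, ht, ⟨rfl, rfl⟩ | ⟨rfl, rfl⟩⟩ := h
  · exact U.merge0 hs ht h1
  · exact U.merge1 hs ht (by linear_combination h1 - f4_two f4_p4)

end UW

/-- hyperbolic coordinates -/
def hv {m : ℕ} (a b : F4) (u : Fin m → F4) : Fin (m + 2) → F4 :=
  Fin.cons (a + b * F4.w) (Fin.cons (a + b * F4.w ^ 2) u)

theorem h_hv {m : ℕ} (a b c d : F4) (u u' : Fin m → F4) :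
    (TU (m + 2)).h (hv a b u) (hv c d u') = a * d ^ 2 + b * c ^ 2 + (TU m).h u u' := by
  simp only [tvU_h, Cfsg.hermForm, Fin.sum_univ_succ, hv, Fin.cons_zero, Fin.cons_succ, ← add_assoc]
  congr 1
  revert a b c d; decide +kernel

theorem hv_smul {m : ℕ} (c a b : F4) (u : Fin m → F4) : c • hv a b u = hv (c * a) (c * b) (c • u) := by
  ext i
  refine Fin.cases ?_ (fun i => Fin.cases ?_ (fun i => ?_) i) i <;> simp [hv] <;> ring

theorem hv_surj {m : ℕ} (u : Fin (m + 2) → F4) : ∃ a b u', u = hv a b u' := by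
  obtain ⟨a, b, h1, h2⟩ := (by decide +kernel : ∀ s t : F4, ∃ a b, s = a + b * F4.w ∧
    t = a + b * F4.w ^ 2) (u 0) (u 1)
  refine ⟨a, b, fun i => u i.succ.succ, funext fun i => ?_⟩
  refine Fin.cases ?_ (fun i => Fin.cases ?_ (fun i => ?_) i) i
  exacts [h1, h2, rfl]

/-- the vector attached to a point -/
def Rep (D : Set G) (x f : G) (ι : G → F4 → G) {m : ℕ} (v W : G → Fin m → F4) (d : G)
    (u : Fin (m + 2) → F4) : Prop :=
  (d = x ∧ u = hv 1 0 0) ∨ (∃ y ∈ MM D x f, ∃ a, d = ι y a ∧ u = hv a 0 (v y)) ∨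
    ∃ q l, Gam D x f ι W q l ∧ d = q * f * q⁻¹ ∧ u = hv l 1 (W q)

namespace UW

variable {D : Set G} {x f : G} {ι : G → F4 → G} {m : ℕ} {v W : G → Fin m → F4}
  (U : UW D x f ι v W) [Finite G]
include U

theorem Rep_exists {d : G} (hd : d ∈ D) : ∃ u, Rep D x f ι v W d u := by
  by_cases h : d = x
  · exact ⟨_, Or.inl ⟨h, rfl⟩⟩
  by_cases h' : Commute x d
  · obtain ⟨y, hy, a, rfl⟩ := U.exists_ι hd h h'
    exact ⟨_, Or.inr (Or.inl ⟨y, hy, a, rfl, rfl⟩)⟩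
  · obtain ⟨q, hq, rfl⟩ := U.Q_trans hd h'
    obtain ⟨l, hl⟩ := U.Gam_exists hq
    exact ⟨_, Or.inr (Or.inr ⟨q, l, hl, rfl, rfl⟩)⟩

theorem Rep_uniq {d : G} {u u' : Fin (m + 2) → F4} (h : Rep D x f ι v W d u)
    (h' : Rep D x f ι v W d u') : u = u' := by
  have h1 : ∀ q ∈ QQ D x f ι, ¬ Commute x (q * f * q⁻¹) := fun q hq => by
    rw [commute_conj_right (U.Q_x hq)]; exact U.hxf
  rcases h with ⟨h, rfl⟩ | ⟨y, hy, a, h, rfl⟩ | ⟨q, l, hq, h, rfl⟩ <;>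
    rcases h' with ⟨h', rfl⟩ | ⟨z, hz, b, h', rfl⟩ | ⟨r, k, hr, h', rfl⟩
  · rfl
  · exact absurd (h'.symm.trans h) (U.ne z hz b)
  · exact absurd (h' ▸ h ▸ Commute.refl _) (h1 r (U.Gam_Q hr))
  · exact absurd (h.symm.trans h') (U.ne y hy a)
  · have h2 : z = y := by
      by_contra h2
      have h3 := U.eq_ln (U.lnM hy) (left_mem_ln U.hx y) (U.mem y hy a) (U.ne y hy a).symm
      rw [← h, h', ← U.eq_ln (U.lnM hz) (left_mem_ln U.hx z) (U.mem z hz b) (U.ne z hz b).symm] at h3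
      exact U.uniq (U.lnM hy) (right_mem_ln x hy.1) (left_mem_ln U.hx y) (h3 ▸ right_mem_ln x hz.1)
        U.hf hy.2.2 (fun h => U.hxf h.symm) h2 hz.2.2
    subst h2
    rw [U.inj z hz (h.symm.trans h')]
  · exact absurd (h' ▸ h ▸ U.ιx hy a) (h1 r (U.Gam_Q hr))
  · exact absurd (h ▸ h' ▸ Commute.refl _) (h1 q (U.Gam_Q hq))
  · exact absurd (h ▸ h' ▸ U.ιx hz b) (h1 q (U.Gam_Q hq))
  · have h2 : r = q := inv_mul_eq_one.1 (U.semireg (mul_mem (inv_mem (U.Gam_Q hr)) (U.Gam_Q hq))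
      (commute_of_conj_eq (by
        rw [show r⁻¹ * q * f * (r⁻¹ * q)⁻¹ = r⁻¹ * (q * f * q⁻¹) * r by group, ← h, h']; group)))
    subst h2
    rw [U.Gam_uniq hq hr]

theorem Rep_commute {d e : G} {u u' : Fin (m + 2) → F4} (h : Rep D x f ι v W d u)
    (h' : Rep D x f ι v W e u') : Commute d e ↔ (TU (m + 2)).h u u' = 0 := by
  have h1 : ∀ {e u'}, Rep D x f ι v W e u' → (Commute x e ↔ (TU (m + 2)).h (hv 1 0 0) u' = 0) := by
    rintro _ _ (⟨rfl, rfl⟩ | ⟨z, hz, b, rfl, rfl⟩ | ⟨r, k, hr, rfl, rfl⟩) <;>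
      rw [h_hv, TvG.zero_left]
    · simp
    · simpa using U.ιx hz b
    · rw [commute_conj_right (U.Q_x (U.Gam_Q hr))]; simpa using U.hxf
  have h2 : ∀ y ∈ MM D x f, ∀ a q l, Gam D x f ι W q l → (Commute (ι y a) (q * f * q⁻¹) ↔
      (TU (m + 2)).h (hv a 0 (v y)) (hv l 1 (W q)) = 0) := fun y hy a q l hq => by
    rw [h_hv, ← U.kapW q (U.Gam_Q hq) y hy, Commute.symm_iff, U.fq_iff (U.Gam_Q hq) hy]
    generalize kap ι q y = k
    clear hq; revert a l k; decide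
  rcases id h with ⟨rfl, rfl⟩ | ⟨y, hy, a, rfl, rfl⟩ | ⟨q, l, hq, rfl, rfl⟩
  · exact h1 h'
  · rcases h' with ⟨rfl, rfl⟩ | ⟨z, hz, b, rfl, rfl⟩ | ⟨r, k, hr, rfl, rfl⟩
    · rw [Commute.symm_iff, TvG.perp_iff]; exact h1 h
    · rw [h_hv, zero_pow two_ne_zero, mul_zero, zero_mul, zero_add, zero_add, U.hvv hz hy]
      exact ⟨fun h => by_contra fun h3 => U.nc hz hy h3 b a h.symm, fun h =>
        U.ιc hz b (U.ιD hy a) (U.ιx hy a) (U.ιc hy a hz.1 hz.2.1 h).symm⟩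
    · exact h2 y hy a r k hr
  · rcases h' with ⟨rfl, rfl⟩ | ⟨z, hz, b, rfl, rfl⟩ | ⟨r, k, hr, rfl, rfl⟩
    · rw [Commute.symm_iff, TvG.perp_iff]; exact h1 h
    · rw [Commute.symm_iff, TvG.perp_iff]; exact h2 z hz b q l hq
    · have h3 := U.Gam_zero (U.Gam_mul (U.Gam_inv hr) hq)
      rw [U.W_inv (U.Gam_Q hr), ← commute_conj_iff (g := r), Commute.symm_iff,
        show r * (r⁻¹ * q * f * (r⁻¹ * q)⁻¹) * r⁻¹ = q * f * q⁻¹ by group] at h3
      rw [h3, h_hv, one_pow, mul_one, one_mul, add_comm l]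

theorem Rep_surj {u : Fin (m + 2) → F4} (h0 : u ≠ 0) (h : (TU (m + 2)).h u u = 0) :
    ∃ d ∈ D, ∃ (c : F4) (u' : Fin (m + 2) → F4), Rep D x f ι v W d u' ∧ u = c • u' := by
  obtain ⟨a, b, u, rfl⟩ := hv_surj u
  have h1 : ∀ (u : Fin m → F4) (l : F4), l + l ^ 2 = (TU m).h u u →
      ∃ q, Gam D x f ι W q l ∧ W q = u := fun u l hl => by
    obtain ⟨q, hq, rfl⟩ := U.Wsurj u
    obtain ⟨k, hk⟩ := U.Gam_exists hq
    rcases (by decide : ∀ l k : F4, l + l ^ 2 = k + k ^ 2 → l = k ∨ l = k + 1) l k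
      (hl.trans (U.Gam_norm hk).symm) with rfl | rfl
    exacts [⟨q, hk, rfl⟩, ⟨_, U.Gam_x hk, U.W_mulx hq⟩]
  rw [h_hv] at h
  by_cases hb : b = 0
  · subst hb
    obtain ⟨q, hq, rfl⟩ := h1 u 0 (by simpa using h.symm)
    rcases U.S_of (U.Gam_Q hq) ((U.Gam_zero hq).2 rfl) with rfl | ⟨y, hy, c, hc, rfl⟩
    · exact ⟨x, U.hx, a, _, Or.inl ⟨rfl, rfl⟩, by simp [hv_smul, U.W_one]⟩
    · exact ⟨_, U.ιD hy (a / c ^ 2), c ^ 2, _, Or.inr (Or.inl ⟨y, hy, _, rfl, rfl⟩), by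
        rw [hv_smul, U.W_S hy, mul_zero, mul_div_cancel₀ _ (pow_ne_zero 2 hc)]⟩
  · obtain ⟨q, hq, h2⟩ := h1 (b⁻¹ • u) (b⁻¹ * a) (by
      rw [TvG.smul_left, TvG.smul_right]
      generalize (TU m).h u u = k at h
      clear h0; revert a b k; decide)
    exact ⟨_, U.conj q f U.hf, b, _, Or.inr (Or.inr ⟨q, _, hq, rfl, rfl⟩), by
      rw [hv_smul, h2, smul_inv_smul₀ hb, mul_one, mul_inv_cancel_left₀ hb]⟩

theorem two_le : 2 ≤ m := by
  obtain ⟨y, hy⟩ := U.exists_M U.hx U.hf U.hxf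
  obtain ⟨z, hz, z1, -⟩ := U.exists_common hy hy
  have h1 := (U.hvv hy hz).not.2 z1
  have h2 := (U.hvv hy hy).2 (Commute.refl y)
  match m, v, h1, h2 with
  | 0, _, h1, _ => exact absurd (by simp [tvU_h, Cfsg.hermForm]) h1
  | 1, v, h1, h2 =>
    simp only [tvU_h, Cfsg.hermForm, Fin.sum_univ_succ, Fin.sum_univ_zero, add_zero] at h1 h2
    revert h1 h2
    generalize v y 0 = a, v z 0 = b
    revert a b; decide
  | _ + 2, _, _, _ => omega

end UW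

theorem Pol.unitary [Finite G] {D : Set G} (P : Pol D) (h5 : ∀ l, IsLn D l → l.ncard = 5) :
    ∃ (n : ℕ) (φ : G → Fin n → F4), 4 ≤ n ∧
      (∀ a ∈ D, ∀ b ∈ D, Commute a b ↔ (TU n).h (φ a) (φ b) = 0) ∧
      (∀ u, u ≠ 0 → (TU n).h u u = 0 → ∃ d ∈ D, ∃ c : F4, u = c • φ d) ∧
      Nonempty (G ≃* Cfsg.PSU n F4 2) := by
  obtain ⟨x, hx, f, hf, hxf⟩ := P.exn
  obtain ⟨ι₀, U₀⟩ := P.exists_uni h5 hx hf hxf
  obtain ⟨ι, m, v, W, U⟩ := U₀.exists_UW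
  have : ∀ d, ∃ u, d ∈ D → Rep D x f ι v W d u := fun d => by
    by_cases hd : d ∈ D
    · exact (U.Rep_exists hd).imp fun _ h _ => h
    · exact ⟨0, fun h => absurd h hd⟩
  choose φ hφ using this
  have h1 : ∀ a ∈ D, ∀ b ∈ D, Commute a b ↔ (TU (m + 2)).h (φ a) (φ b) = 0 :=
    fun a ha b hb => U.Rep_commute (hφ a ha) (hφ b hb)
  have h2 : ∀ u, u ≠ 0 → (TU (m + 2)).h u u = 0 → ∃ d ∈ D, ∃ c : F4, u = c • φ d := fun u u0 hu => by
    obtain ⟨d, hd, c, u', h, rfl⟩ := U.Rep_surj u0 hu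
    exact ⟨d, hd, c, by rw [U.Rep_uniq h (hφ d hd)]⟩
  have h3 : 4 ≤ m + 2 := by have := U.two_le; omega
  exact ⟨m + 2, φ, h3, h1, h2, (TU (m + 2)).iso_unitary f4_w P.toFis P.cen (tvU_gen f4_p4 f4_w h3)
    φ h1 h2⟩

theorem Fis.pol_of_two [Finite G] {D : Set G} (F : Fis D) {x : G} (hx : x ∈ D) (hZ : center G = ⊥)
    (N : Subgroup (closure (Dd D x))) [hN : N.Normal] (ho : IsPGroup 2 N) (h : ¬ N ≤ center _) :
    Pol D := by
  have hD := F.Dd_class hx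
  obtain ⟨q, hq, y, hy, hqy⟩ : ∃ q ∈ N, ∃ y ∈ (closure (Dd D x)).subtype ⁻¹' (Dd D x),
      ¬ Commute q y := by
    by_contra hn
    push Not at hn
    refine h fun q hq => mem_center_iff.2 fun g => mem_centralizer_singleton_iff.1 ?_
    exact ((closure_le (centralizer {q})).2 fun y hy => mem_centralizer_singleton_iff.2
      (hn q hq y hy).symm) (hD.2.2 ▸ mem_top g)
  have h1 : ∀ a ∈ (closure (Dd D x)).subtype ⁻¹' (Dd D x), ∀ b ∈ (closure (Dd D x)).subtype ⁻¹'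
      (Dd D x), QuotientGroup.mk' N a = QuotientGroup.mk' N b → Commute a b := by
    intro a ha b hb hab
    have hm : a * b ∈ N := by
      rw [← QuotientGroup.eq_one_iff, ← QuotientGroup.mk'_apply, map_mul, ← hab, ← map_mul,
        tt_sq hD.1 ha, map_one]
    by_contra hn
    obtain ⟨k, hk⟩ := ho ⟨_, hm⟩
    have h2 := Nat.dvd_gcd (orderOf_dvd_of_pow_eq_one (congrArg Subtype.val hk))
      (orderOf_dvd_of_pow_eq_one (tt_cube hD.1 ha hb hn))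
    rw [Nat.Coprime.pow_left k (by decide), Nat.dvd_one, orderOf_eq_one_iff] at h2
    exact hn (by rw [eq_inv_of_mul_eq_one_left h2]; exact (Commute.refl b).inv_left)
  have hy' := class_conj hD q y hy
  have h2 : QuotientGroup.mk' N (q * y * q⁻¹) = QuotientGroup.mk' N y := by
    have : QuotientGroup.mk' N q = 1 := (QuotientGroup.eq_one_iff _).2 hq
    simp only [map_mul, map_inv, this, one_mul, inv_one, mul_one]
  have h3 : ((q * y * q⁻¹ : closure (Dd D x)) : G) ∈ ln D x y := by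
    refine ⟨hy'.1, fun z hz z1 z2 => ?_⟩
    by_cases h3 : z = x
    · rw [h3]; exact hy'.2.2
    by_contra h5
    have hz' : z ∈ Dd D x := ⟨hz, h3, z1.symm⟩
    let z' : closure (Dd D x) := ⟨z, subset_closure hz'⟩
    have h8 : ¬ Commute (q * y * q⁻¹) z' := fun h => h5 (Commute.symm (congrArg Subtype.val h))
    have h6 := congrArg (QuotientGroup.mk' N) (tt_braid hD.1 hy' (b := z') hz' h8)
    have h7 : Commute y z' := Subtype.ext z2.symm
    rw [map_mul, map_mul _ _ z', map_mul _ _ z', map_mul _ z', h2, ← (h7.map _).eq, mul_assoc,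
      mul_assoc, mul_right_inj, ← (h7.map _).eq, mul_left_inj] at h6
    exact h8 (h1 _ hy' z' hz' (h2.trans h6))
  refine ⟨F, fun a ha b hb => ?_, hZ⟩
  obtain ⟨g, rfl, rfl⟩ := F.pair_trans hx ha hy hb
  exact ⟨_, F.ln_conj g h3, by simpa using hy'.2.1, by
    simpa using fun h => hqy (commute_of_conj_eq (Subtype.ext h))⟩

end CfsgH4
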