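import Cfsg.Agent.H4.Fischer7

/-! Fischer's theory: solvable `⟨D_x⟩`. -/

set_option autoImplicit false

namespace CfsgH4

open Subgroup CfsgH5

variable {G : Type*} [Group G]

theorem sp4_iso_S6 : Nonempty (Matrix.symplecticGroup (Fin 2) (ZMod 2) ≃* Equiv.Perm (Fin 6)) := by
  set T := tvS 2
  let p : Fin 15 → Equiv.Perm (Fin 6) := ![Equiv.swap 0 1, Equiv.swap 1 2, Equiv.swap 2 3, Equiv.swap 3 4, Equiv.swap 4 5, Equiv.swap 0
    2, Equiv.swap 1 3, Equiv.swap 2 4, Equiv.swap 3 5, Equiv.swap 0 3, Equiv.swap 1 4,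
    Equiv.swap 2 5, Equiv.swap 0 4, Equiv.swap 1 5, Equiv.swap 0 5]
  let w : Fin 15 → Fin 2 ⊕ Fin 2 → ZMod 2 := ![Sum.elim ![1, 0] ![0, 0], Sum.elim ![0, 0] ![1, 0], Sum.elim ![1, 1] ![0, 0], Sum.elim ![0, 0]
    ![0, 1], Sum.elim ![0, 1] ![0, 0], Sum.elim ![1, 0] ![1, 0], Sum.elim ![1, 1] ![1, 0],
    Sum.elim ![1, 1] ![0, 1], Sum.elim ![0, 1] ![0, 1], Sum.elim ![0, 1] ![1, 0], Sum.elim ![1,
    1] ![1, 1], Sum.elim ![1, 0] ![0, 1], Sum.elim ![0, 1] ![1, 1], Sum.elim ![1, 0] ![1, 1],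
    Sum.elim ![0, 0] ![1, 1]]
  let τ : Fin 5 → Fin 15 → Fin 15 := ![![0, 5, 2, 3, 4, 1, 9, 7, 8, 6, 12, 11, 10, 14, 13], ![5, 1, 6, 3, 4, 0, 2, 10, 8, 9, 7, 13,
    12, 11, 14], ![0, 6, 2, 7, 4, 9, 1, 3, 11, 5, 10, 8, 12, 13, 14], ![0, 1, 7, 3, 8, 5, 10, 2,
    4, 12, 6, 11, 9, 13, 14], ![0, 1, 2, 8, 4, 5, 6, 11, 3, 9, 13, 7, 14, 10, 12]]
  have h1 : ∀ u, u ≠ 0 → ∃ j, w j = u := by decide +kernel
  have h2 : ∀ (i : Fin 5) j, T.t (w (i.castLE (by decide))) * T.t (w j) *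
      (T.t (w (i.castLE (by decide))))⁻¹ = T.t (w (τ i j)) := fun i j => by
    rw [T.t_conj _ (tvS_self 2 _), T.ht _ (tvS_self 2 _), tvS_h, symp_eq]
    congr 1
    revert i j; decide +kernel
  obtain ⟨f, hf⟩ := exists_hom_of_table (fun i : Fin 5 => Equiv.swap i.castSucc i.succ)
    (fun i : Fin 5 => T.t (w (i.castLE (by decide)))) (closure_range_swap 5) p
    (fun j => T.t (w j)) (by decide +kernel) (fun g _ h => by
      rw [← mem_bot, ← tvS_center 2, mem_center_iff]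
      intro k
      refine mem_centralizer_singleton_iff.1 (((closure_le (centralizer {g})).2 ?_)
        (tvS_gen 2 ▸ mem_top k))
      rintro _ ⟨u, u0, -, rfl⟩
      obtain ⟨j, rfl⟩ := h1 u u0
      exact mem_centralizer_singleton_iff.2 (commute_of_conj_eq (h j)).symm) τ (by decide +kernel) h2
  refine ⟨(MulEquiv.ofBijective f ⟨?_, ?_⟩).symm⟩
  · rw [← MonoidHom.ker_eq_bot_iff]
    by_contra h
    have h3 := Equiv.Perm.alternatingGroup_le_of_normal (by simp) ((nontrivial_iff_ne_bot _).2 h)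
      (Equiv.Perm.mem_alternatingGroup.2 (show Equiv.Perm.sign (Equiv.swap (0 : Fin 5).castSucc
        (0 : Fin 5).succ * Equiv.swap (1 : Fin 5).castSucc (1 : Fin 5).succ) = 1 by decide))
    rw [MonoidHom.mem_ker, map_mul, hf, hf] at h3
    obtain ⟨c, -, hc⟩ := T.t_inj (tvS_self 2 _) (tvS_self 2 _) (by decide)
      ((eq_inv_of_mul_eq_one_left h3).trans (inv_eq_of_mul_eq_one_right (T.t_sq (tvS_self 2 _))))
    revert c; decide
  · rw [← MonoidHom.range_eq_top, eq_top_iff, ← tvS_gen 2, closure_le]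
    rintro _ ⟨u, u0, -, rfl⟩
    obtain ⟨j, rfl⟩ := h1 u u0
    clear u0
    induction j using WellFoundedLT.induction with
    | ind j ih =>
    rcases (by decide +kernel : ∀ j : Fin 15, (∃ i : Fin 5, j = i.castLE (by decide)) ∨
      ∃ i, ∃ k < j, j = τ i k) j with ⟨i, rfl⟩ | ⟨i, k, hk, rfl⟩
    · exact ⟨_, hf i⟩
    · rw [← h2]
      exact mul_mem (mul_mem ⟨_, hf i⟩ (ih k hk)) (inv_mem ⟨_, hf i⟩)

theorem eq_of_solvable [Group.IsSolvable G] {a b c d : G} (sa : a * a = 1) (sb : b * b = 1)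
    (sc : c * c = 1) (sd : d * d = 1) (r0 : (a * b) ^ 3 = 1) (r1 : (a * c) ^ 2 = 1)
    (r2 : (a * d) ^ 2 = 1) (r3 : (b * c) ^ 3 = 1) (r4 : (b * d) ^ 2 = 1) (r5 : (c * d) ^ 3 = 1) :
    a * b = 1 := by
  obtain ⟨n, hn⟩ := Group.IsSolvable.solvable (G := G)
  rw [← mem_bot, ← hn]
  clear hn
  have ia := inv_eq_of_mul_eq_one_right sa; have ib := inv_eq_of_mul_eq_one_right sb
  have ic := inv_eq_of_mul_eq_one_right sc; have id := inv_eq_of_mul_eq_one_right sd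
  induction n with
  | zero => trivial
  | succ n ih =>
    have h1 := (derivedSeries_normal G n).conj_mem _ ih (b * a * c * b * d * c)
    have h2 := (derivedSeries_normal G (n + 1)).conj_mem _ (commutator_mem_commutator ih h1)
      (a * c * b)
    simp only [commutatorElement_def, mul_inv_rev, ia, ib, ic, id, ← mul_assoc] at h2
    rwa [
        (show a * c * b * a * b * b * a * c * b * d * c * a * b * c * d * b * c * a * b * b * a
        * b * a * c * b * d * c * b * a * c * d * b * c * a * b * b * c * a = a * b from weq [a,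
        b, c, d] ⟨sa, sb, sc, sd⟩ [([0, 1], 3), ([0, 2], 2), ([0, 3], 2), ([1, 2], 3), ([1, 3],
        2), ([2, 3], 3)] ⟨r0, r1, r2, r3, r4, r5⟩ [0, 2, 1, 0, 1, 1, 0, 2, 1, 3, 2, 0, 1, 2, 3,
        1, 2, 0, 1, 1, 0, 1, 0, 2, 1, 3, 2, 1, 0, 2, 3, 1, 2, 0, 1, 1, 2, 0] [0, 1] [(24, 1, 0,
        false), (1, 3, 0, false), (20, 2, 0, false), (18, 1, 1, false), (16, 3, 0, false), (14,
        4, 1, false), (16, 4, 1, false), (13, 5, 1, false), (4, 1, 0, false), (5, 3, 0, false),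
        (7, 4, 1, false), (3, 2, 0, false), (4, 4, 0, false), (5, 5, 0, false), (6, 4, 0,
        false), (7, 2, 0, false), (2, 1, 0, false), (3, 3, 0, false), (4, 1, 0, false), (0, 0,
        1, false)] (by decide))] at h2

theorem Fis.not_solvable {D : Set G} (F : Fis D) {x y a b c d : G} (hx : x ∈ D) (hy : y ∈ D)
    (ha : a ∈ D) (hb : b ∈ D) (hc : c ∈ D) (hd : d ∈ D) (h1 : Commute y a) (h2 : Commute y b)
    (h3 : Commute y c) (h4 : Commute y d) (r0 : ¬ Commute a b) (r1 : Commute a c) (r2 : Commute a d)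
    (r3 : ¬ Commute b c) (r4 : Commute b d) (r5 : ¬ Commute c d) :
    ¬ Group.IsSolvable (closure (Dd D x)) := by
  intro hs
  obtain ⟨g, rfl⟩ := F.trans y hy x hx
  have k : ∀ a ∈ D, ∀ b, Commute y a → Commute y b → ¬ Commute a b →
      g * a * g⁻¹ ∈ closure (Dd D (g * y * g⁻¹)) := fun a ha b h1 h2 h3 =>
    subset_closure ((F.Dd_iff g y a).1 ⟨ha, fun h => h3 (h ▸ h2), h1⟩)
  have k1 := fun a ha => F.sq (F.conj g a ha)
  have k2 := fun a ha b hb (h : Commute a b) => F.two (F.conj g a ha) (F.conj g b hb) (h.conj g)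
  have k3 := fun a ha b hb (h : ¬ Commute a b) => F.cube (F.conj g a ha) (F.conj g b hb)
    (commute_conj_iff.not.2 h)
  have := congrArg Subtype.val (eq_of_solvable (a := ⟨_, k a ha b h1 h2 r0⟩)
    (b := ⟨_, k b hb c h2 h3 r3⟩) (c := ⟨_, k c hc d h3 h4 r5⟩)
    (d := ⟨_, k d hd c h4 h3 fun h => r5 h.symm⟩) (Subtype.ext (k1 a ha)) (Subtype.ext (k1 b hb))
    (Subtype.ext (k1 c hc)) (Subtype.ext (k1 d hd)) (Subtype.ext (k3 a ha b hb r0))
    (Subtype.ext (k2 a ha c hc r1)) (Subtype.ext (k2 a ha d hd r2)) (Subtype.ext (k3 b hb c hc r3))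
    (Subtype.ext (k2 b hb d hd r4)) (Subtype.ext (k3 c hc d hd r5)))
  refine r0 ((commute_conj_iff (g := g)).1 ?_)
  rw [show g * a * g⁻¹ = _ from eq_inv_of_mul_eq_one_left this]
  exact (Commute.refl _).inv_left

theorem TvG.not_solvable {F ι K : Type*} [Field F] [Fintype ι] [DecidableEq ι] [Group K]
    (T : TvG F ι K) {D : Set G} (Φ : Fis D) {φ : G → ι → F}
    (h1 : ∀ a ∈ D, ∀ b ∈ D, Commute a b ↔ T.h (φ a) (φ b) = 0)
    (h2 : ∀ u, u ≠ 0 → T.h u u = 0 → ∃ d ∈ D, ∃ c : F, u = c • φ d) (u : Fin 5 → ι → F)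
    (h3 : ∀ i, u i ≠ 0) (h4 : ∀ i j, T.h (u i) (u j) = 0 ↔
      i = 0 ∨ j = 0 ∨ (i.1 + 1 ≠ j.1 ∧ j.1 + 1 ≠ i.1)) {x : G} (hx : x ∈ D) :
    ¬ Group.IsSolvable (closure (Dd D x)) := by
  choose d hd c hc using fun i => h2 (u i) (h3 i) ((h4 i i).2 (by omega))
  have h5 : ∀ i j, Commute (d i) (d j) ↔ i = 0 ∨ j = 0 ∨ (i.1 + 1 ≠ j.1 ∧ j.1 + 1 ≠ i.1) :=
    fun i j => by
      rw [← h4, hc i, hc j, T.smul_left, T.smul_right, h1 _ (hd i) _ (hd j)]
      simp [left_ne_zero_of_smul (hc i ▸ h3 i), left_ne_zero_of_smul (hc j ▸ h3 j)]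
  refine Φ.not_solvable hx (hd 0) (hd 1) (hd 2) (hd 3) (hd 4) ?_ ?_ ?_ ?_ ?_ ?_ ?_ ?_ ?_ ?_ <;>
    rw [h5] <;> decide

theorem append_ne_zero {F : Type*} [Zero F] {m : ℕ} (k : ℕ) {u : Fin m → F} (h : u ≠ 0) :
    Fin.append u (0 : Fin k → F) ≠ 0 := fun h1 => h (funext fun i => by
  simpa using congrFun h1 (Fin.castAdd k i))

theorem Fis.solvable_cases [Finite G] {D : Set G} (F : Fis D) (hZ : center G = ⊥) {x : G}
    (hx : x ∈ D) (hs : Group.IsSolvable (closure (Dd D x))) :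
    Nonempty (G ≃* Equiv.Perm (Fin 5)) ∨ Nonempty (G ≃* Equiv.Perm (Fin 6)) ∨
      Nonempty (G ≃* Cfsg.PSU 4 F4 2) ∨ Nonempty (G ≃* Cfsg.PSU 5 F4 2) := by
  have : Fact (Nat.Prime 2) := ⟨Nat.prime_two⟩
  obtain ⟨y, hy⟩ := F.exc' hx
  obtain ⟨z, hz, z1, z2⟩ := F.V_triv hx hy.1 hy.2.1
  by_cases h1 : Cfsg.pPrimeCore 2 (closure (Dd D x)) ≤ center _
  swap; · exact Or.inl (F.iso_S5_of_odd hx hZ _ odd_card_pPrimeCore h1)
  have P := F.pol_of_two hx hZ _ (hN := Cfsg.pCore_normal 2 _) (CfsgL0.isPGroup_pCore _ 2) fun h2 => by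
    have h3 := (CfsgL0.fitting_le_pCore_sup 2).trans (sup_le h2 h1)
    have h4 := h3 (CfsgL0.centralizer_fitting_le (centralizer_eq_top_iff_subset.2 h3 ▸
      mem_top (⟨z, subset_closure ⟨hz, fun h => z2 (h ▸ hy.2.2.symm), z1⟩⟩ : closure (Dd D x))))
    exact z2 (congrArg Subtype.val (mem_center_iff.1 h4 ⟨y, subset_closure hy⟩))
  have hl := isLn_ln hx hy.1 hy.2.1 hy.2.2
  rcases P.ncard_cases hl with h3 | h5
  · obtain ⟨n, φ, k1, k2, ⟨e⟩⟩ := P.symplectic fun l h => (F.ncard_ln h hl).trans h3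
    obtain ⟨f, hf, f1⟩ := F.exn' hx
    have k3 := (k1 x hx y hy.1).1 hy.2.2
    have k4 := (k1 x hx z hz).1 z1
    have k5 := (k1 y hy.1 z hz).not.1 z2
    have k6 := (k1 x hx f hf).not.1 f1
    rcases Nat.lt_or_ge n 3 with hn | hn
    · rw [tvS_h, symp_eq] at k3 k4 k5 k6
      interval_cases n
      · simp at k6
      · exfalso
        simp only [Fin.sum_univ_one] at k3 k4 k5 k6
        revert k3 k4 k5 k6
        generalize φ x (.inl 0) = a, φ y (.inl 0) = b, φ z (.inl 0) = c, φ f (.inl 0) = d,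
          φ x (.inr 0) = a', φ y (.inr 0) = b', φ z (.inr 0) = c', φ f (.inr 0) = d'
        intro k3 k4 k5 k6
        exact (by decide +revert : ∀ a b c a' b' c' : ZMod 2, a' * b + a * b' = 0 → a' * c + a * c' = 0 →
          b' * c + b * c' ≠ 0 → a = 0 ∧ a' = 0) a b c a' b' c' k3 k4 k5 |>.elim fun h h' =>
          k6 (by simp [h, h'])
      · exact Or.inr (Or.inl ⟨e.trans sp4_iso_S6.some⟩)
    · obtain ⟨k, rfl⟩ := Nat.exists_eq_add_of_le hn
      refine absurd hs ((tvS (3 + k)).not_solvable F k1 (fun u u0 _ => ?_) (fun i => Sum.elim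
        (Fin.append (![![1, 0, 0], ![0, 1, 0], 0, ![0, 1, 1], 0] i) 0)
        (Fin.append (![0, 0, ![0, 1, 0], 0, ![0, 0, 1]] i) 0)) (fun i h => ?_) (fun i j => ?_) hx)
      · obtain ⟨d, hd, rfl⟩ := k2 u u0
        exact ⟨d, hd, 1, (one_smul _ _).symm⟩
      · rw [← Sum.elim_zero_zero, Sum.elim_eq_iff] at h
        have h6 := not_imp_not.1 (append_ne_zero k) h.1
        have h7 := not_imp_not.1 (append_ne_zero k) h.2
        clear h; revert i; decide +revert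
      · rw [tvS_h, symp_eq, Fin.sum_univ_add]
        simp only [Sum.elim_inl, Sum.elim_inr, Fin.append_left, Fin.append_right, Pi.zero_apply,
          mul_zero, add_zero, Finset.sum_const_zero]
        revert i j; decide +revert
  · obtain ⟨n, φ, hn, k1, k2, e⟩ := P.unitary fun l h => (F.ncard_ln h hl).trans h5
    rcases Nat.lt_or_ge n 6 with hn | hn
    · interval_cases n
      exacts [Or.inr (Or.inr (Or.inl e)), Or.inr (Or.inr (Or.inr e))]
    · obtain ⟨k, rfl⟩ := Nat.exists_eq_add_of_le hn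
      refine absurd hs ((TU (6 + k)).not_solvable F k1 k2 (fun i => Fin.append (![![1, 1, 0, 0, 0, 0],
        ![0, 0, 1, 1, 0, 0], ![0, 0, 0, 1, 1, 0], ![0, 0, 0, 0, 1, 1], ![0, 0, 1, 1, 1, F4.w]] i) 0)
        (fun i => append_ne_zero k (by revert i; decide)) (fun i j => ?_) hx)
      rw [tvU_h, Cfsg.hermForm, Fin.sum_univ_add]
      simp only [Fin.append_left, Fin.append_right, Pi.zero_apply, zero_mul, add_zero,
        Finset.sum_const_zero]
      revert i j; decide +kernel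

end CfsgH4
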