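import Cfsg.Agent.H4.Fischer4
import Cfsg.Prelude.Def_Classical

/-! Groups generated by symplectic or unitary transvections over the fields with 2 or 4 elements. -/

set_option autoImplicit false

namespace CfsgH4

open Subgroup Matrix

theorem f4_two {F : Type*} [Field F] (p4 : ∀ x : F, x ^ 4 = x) : (2 : F) = 0 := by
  linear_combination p4 (-1)

theorem f4_cube {F : Type*} [Field F] (p4 : ∀ x : F, x ^ 4 = x) {x : F} (hx : x ≠ 0) :
    x * x ^ 2 = 1 := mul_left_cancel₀ hx (by linear_combination p4 x)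

/-- isometry groups containing the transvections -/
structure TvG (F ι K : Type*) [Field F] [Fintype ι] [DecidableEq ι] [Group K] where
  p4 : ∀ x : F, x ^ 4 = x
  h : (ι → F) → (ι → F) → F
  add_left : ∀ u v w, h (u + v) w = h u w + h v w
  smul_left : ∀ (c : F) u v, h (c • u) v = c * h u v
  symm : ∀ u v, h v u = h u v ^ 2
  nondeg : ∀ u, (∀ v, h u v = 0) → u = 0
  mat : K →* Matrix ι ι F
  inj : Function.Injective mat
  isom : ∀ g u v, h (mat g *ᵥ u) (mat g *ᵥ v) = h u v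
  det : ∀ g, (mat g).det = 1
  t : (ι → F) → K
  ht : ∀ v, h v v = 0 → ∀ u, mat (t v) *ᵥ u = u + h u v • v

namespace TvG

variable {F ι K : Type*} [Field F] [Fintype ι] [DecidableEq ι] [Group K] (T : TvG F ι K)

include T in
theorem two : (2 : F) = 0 := f4_two T.p4

theorem add_right (u v w : ι → F) : T.h u (v + w) = T.h u v + T.h u w := by
  rw [T.symm (v + w), T.symm v, T.symm w, T.add_left]
  linear_combination (T.h v u * T.h w u) * T.two

theorem smul_right (c : F) (u v : ι → F) : T.h u (c • v) = c ^ 2 * T.h u v := by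
  rw [T.symm (c • v), T.symm v, T.smul_left, mul_pow]

theorem zero_left (v : ι → F) : T.h 0 v = 0 := by simpa using T.smul_left 0 0 v

theorem zero_right (v : ι → F) : T.h v 0 = 0 := by simpa using T.smul_right 0 v 0

theorem perp {u v : ι → F} (h : T.h u v = 0) : T.h v u = 0 := by rw [T.symm, h]; simp

theorem perp_iff {u v : ι → F} : T.h u v = 0 ↔ T.h v u = 0 := ⟨T.perp, T.perp⟩

include T in
theorem add_self (v : ι → F) : v + v = 0 := by rw [← two_smul F, T.two, zero_smul]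

theorem self_cases (v : ι → F) : T.h v v = 0 ∨ T.h v v = 1 := by
  rw [or_iff_not_imp_left]
  exact fun h => mul_left_cancel₀ h (by linear_combination -T.symm v v)

theorem ext {g k : K} (h : ∀ u, T.mat g *ᵥ u = T.mat k *ᵥ u) : g = k :=
  T.inj (Matrix.ext_iff_mulVec.2 h)

theorem mul_act (g k : K) (u : ι → F) : T.mat (g * k) *ᵥ u = T.mat g *ᵥ (T.mat k *ᵥ u) := by
  rw [map_mul, mulVec_mulVec]

theorem act_inv (g : K) (u : ι → F) : T.mat g *ᵥ (T.mat g⁻¹ *ᵥ u) = u := by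
  rw [← T.mul_act, mul_inv_cancel, map_one, one_mulVec]

theorem act_ne (g : K) {u : ι → F} (h : u ≠ 0) : T.mat g *ᵥ u ≠ 0 := fun h1 => h (by
  rw [← T.act_inv g⁻¹ u, inv_inv, h1, mulVec_zero])

theorem exists_h_ne {u : ι → F} (h : u ≠ 0) : ∃ v, T.h u v ≠ 0 := by
  by_contra hn
  push Not at hn
  exact h (T.nondeg u hn)

theorem exists_h_one {u : ι → F} (h : u ≠ 0) : ∃ v, T.h v u = 1 := by
  obtain ⟨v, hv⟩ := T.exists_h_ne h
  exact ⟨(T.h v u)⁻¹ • v, by rw [T.smul_left, inv_mul_cancel₀ fun h => hv (T.perp h)]⟩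

theorem t_conj (g : K) {v : ι → F} (hv : T.h v v = 0) : g * T.t v * g⁻¹ = T.t (T.mat g *ᵥ v) := by
  refine T.ext fun u => ?_
  rw [T.mul_act, T.mul_act, T.ht v hv, T.ht _ (by rw [T.isom, hv]), mulVec_add, mulVec_smul,
    T.act_inv, ← T.isom g, T.act_inv]

theorem t_smul {c : F} (hc : c ≠ 0) {v : ι → F} (hv : T.h v v = 0) : T.t (c • v) = T.t v := by
  refine T.ext fun u => ?_
  rw [T.ht v hv, T.ht _ (by rw [T.smul_left, T.smul_right, hv]; simp), T.smul_right, smul_smul]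
  congr 2
  linear_combination T.h u v * f4_cube T.p4 hc

theorem t_sq {v : ι → F} (hv : T.h v v = 0) : T.t v * T.t v = 1 := by
  refine T.ext fun u => ?_
  rw [T.mul_act, T.ht v hv, T.ht v hv, T.add_left, T.smul_left, hv, mul_zero, add_zero, add_assoc,
    T.add_self, map_one, one_mulVec, add_zero]

theorem t_inj {u v : ι → F} (hu : T.h u u = 0) (hv : T.h v v = 0) (h0 : u ≠ 0)
    (h : T.t u = T.t v) : ∃ c : F, c ≠ 0 ∧ u = c • v := by
  obtain ⟨w, hw⟩ := T.exists_h_one h0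
  have h1 := T.ht u hu w
  rw [h, T.ht v hv, hw, one_smul, add_right_inj] at h1
  exact ⟨_, fun h2 => h0 (by rw [← h1, h2, zero_smul]), h1.symm⟩

theorem t_zero : T.t 0 = 1 := T.ext fun u => by simp [T.ht 0 (T.zero_left 0)]

theorem t_ne_one {v : ι → F} (hv : T.h v v = 0) (h0 : v ≠ 0) : T.t v ≠ 1 := fun h => by
  obtain ⟨c, -, hc⟩ := T.t_inj hv (T.zero_left 0) h0 (h.trans T.t_zero.symm)
  exact h0 (by simpa using hc)

theorem t_commute {u v : ι → F} (hu : T.h u u = 0) (hv : T.h v v = 0) (h : T.h v u = 0) :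
    Commute (T.t u) (T.t v) :=
  commute_of_conj_eq (by rw [T.t_conj _ hv, T.ht u hu, h, zero_smul, add_zero])

theorem t_braid {u v : ι → F} (hu : T.h u u = 0) (hv : T.h v v = 0) (h : T.h v u ≠ 0) :
    T.t u * T.t v * T.t u = T.t v * T.t u * T.t v := by
  have h1 := T.t_conj (T.t u) hv
  have h2 := T.t_conj (T.t v) hu
  rw [inv_eq_of_mul_eq_one_right (T.t_sq hu)] at h1
  rw [inv_eq_of_mul_eq_one_right (T.t_sq hv)] at h2
  rw [h1, h2, ← T.t_smul h (v := T.mat (T.t v) *ᵥ u) (by rw [T.isom, hu]), T.ht u hu, T.ht v hv,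
    smul_add, smul_smul, T.symm v u, f4_cube T.p4 h, one_smul, add_comm]

/-- the transvections -/
def D : Set K := {g | ∃ v, v ≠ 0 ∧ T.h v v = 0 ∧ g = T.t v}

theorem rank_iff (g : K) : (T.mat g - 1).rank = 1 ↔ g ∈ T.D := by
  constructor
  · intro h
    obtain ⟨⟨a, ha⟩, a0, h1⟩ := _root_.finrank_eq_one_iff'.1 h
    have h2 : ∀ u, ∃ c : F, T.mat g *ᵥ u = u + c • a := fun u => by
      obtain ⟨c, hc⟩ := h1 ⟨_, u, rfl⟩
      have := congrArg Subtype.val hc
      simp only [SetLike.val_smul, mulVecLin_apply, sub_mulVec, one_mulVec] at this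
      exact ⟨c, by rw [this]; abel⟩
    choose β hβ using h2
    replace a0 : a ≠ 0 := fun h => a0 (Subtype.ext h)
    obtain ⟨u₀, hu₀⟩ := ha
    have h3 : β u₀ = 1 := by
      simp only [mulVecLin_apply, sub_mulVec, one_mulVec, hβ, add_sub_cancel_left] at hu₀
      exact smul_left_injective F a0 (hu₀.trans (one_smul F a).symm)
    have h4 : T.mat g = 1 + vecMulVec a fun j => β (Pi.single j 1) := by
      ext i j
      have := congrFun (hβ (Pi.single j 1)) i
      simp only [mulVec_single_one, col_apply, Pi.add_apply, Pi.smul_apply, smul_eq_mul] at this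
      rw [this, Matrix.add_apply, vecMulVec_apply, Matrix.one_apply, Pi.single_apply, mul_comm]
    have h5 : T.mat g *ᵥ a = a := by
      have := T.det g
      rw [h4, vecMulVec_eq Unit, det_one_add_replicateCol_mul_replicateRow, add_eq_left] at this
      rw [h4, add_mulVec, one_mulVec, vecMulVec_mulVec, this]
      simp
    have h6 : T.h a a = 0 := by
      have := T.isom g u₀ a
      rwa [h5, hβ, h3, one_smul, T.add_left, add_eq_left] at this
    obtain ⟨w, hw⟩ := T.exists_h_one a0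
    have h7 : ∀ u, β u = β w ^ 2 * T.h u a := fun u => by
      have := T.isom g u w
      rw [hβ, hβ, T.add_left, T.add_right, T.add_right, T.smul_left, T.smul_right, T.smul_left,
        T.smul_right, h6, T.symm w a, hw] at this
      linear_combination this - β w ^ 2 * T.h u a * T.two
    have h8 : β w = 1 := by
      have h8 : β w ≠ 0 := fun h8 => by simpa [h8, h3] using h7 u₀
      have := h7 w
      rw [hw] at this
      exact mul_left_cancel₀ h8 (by linear_combination -this)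
    exact ⟨a, a0, h6, T.ext fun u => by rw [hβ, h7, h8, T.ht a h6]; simp⟩
  · rintro ⟨v, h0, hv, rfl⟩
    obtain ⟨w, hw⟩ := T.exists_h_one h0
    refine _root_.finrank_eq_one_iff'.2 ⟨⟨v, w, ?_⟩, fun h => h0 (congrArg Subtype.val h), ?_⟩
    · simp [sub_mulVec, T.ht v hv, hw]
    · rintro ⟨_, u, rfl⟩
      exact ⟨T.h u v, Subtype.ext (by simp [sub_mulVec, T.ht v hv])⟩

theorem exists_both {u v : ι → F} (hu : u ≠ 0) (hv : v ≠ 0) : ∃ y, T.h u y ≠ 0 ∧ T.h v y ≠ 0 := by
  obtain ⟨a, ha⟩ := T.exists_h_ne hu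
  obtain ⟨b, hb⟩ := T.exists_h_ne hv
  by_cases h1 : T.h v a = 0
  · by_cases h2 : T.h u b = 0
    · exact ⟨a + b, by rwa [T.add_right, h2, add_zero], by rwa [T.add_right, h1, zero_add]⟩
    · exact ⟨b, h2, hb⟩
  · exact ⟨a, ha, h1⟩

theorem exists_iso (hw : (∀ v, T.h v v = 0) ∨ ∃ w : F, w ^ 2 + w + 1 = 0) {u : ι → F} (y : ι → F)
    (hu : T.h u u = 0) (h : T.h u y ≠ 0) : ∃ c : F, T.h (y + c • u) (y + c • u) = 0 := by
  rcases T.self_cases y with h1 | h1
  · exact ⟨0, by simpa using h1⟩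
  rcases hw with hw | ⟨w, hw⟩
  · exact ⟨0, hw _⟩
  refine ⟨w / T.h u y, ?_⟩
  rw [T.add_left, T.add_right, T.add_right, T.smul_left, T.smul_right, T.smul_left, T.smul_right,
    hu, h1, T.symm u y, ← mul_pow, div_mul_cancel₀ _ h]
  linear_combination hw

theorem isClass (hw : (∀ v, T.h v v = 0) ∨ ∃ w : F, w ^ 2 + w + 1 = 0) (hgen : closure T.D = ⊤)
    (hne : T.D.Nonempty) : Cfsg.IsThreeTranspositionClass T.D := by
  have h1 : ∀ u v, T.h u u = 0 → T.h v v = 0 → T.h v u ≠ 0 → IsConj (T.t u) (T.t v) :=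
    fun u v hu hv h => isConj_iff.2 ⟨T.t u * T.t v, by
      rw [T.t_braid hu hv h]; group⟩
  refine ⟨⟨?_, ?_⟩, ?_, hgen⟩
  · rintro _ ⟨v, h0, hv, rfl⟩
    exact CfsgH4.orderOf_eq_two_iff.2 ⟨T.t_sq hv, T.t_ne_one hv h0⟩
  · rintro _ ⟨u, -, hu, rfl⟩ _ ⟨v, -, hv, rfl⟩
    by_cases h : T.h v u = 0
    · exact Or.inl (sq_of_commute (T.t_sq hu) (T.t_sq hv) (T.t_commute hu hv h))
    · right
      rw [show (T.t u * T.t v) ^ 3 = T.t u * T.t v * T.t u * (T.t v * T.t u * T.t v) by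
        rw [pow_three]; group, T.t_braid hu hv h,
        show T.t v * T.t u * T.t v * (T.t v * T.t u * T.t v) =
          T.t v * (T.t u * (T.t v * T.t v) * T.t u) * T.t v by group, T.t_sq hv, mul_one, T.t_sq hu,
        mul_one, T.t_sq hv]
  · obtain ⟨_, u, u0, hu, rfl⟩ := hne
    refine ⟨_, ⟨u, u0, hu, rfl⟩, Set.ext fun g => ⟨?_, fun hg => ?_⟩⟩
    · rintro ⟨v, v0, hv, rfl⟩
      by_cases h : T.h v u = 0
      · obtain ⟨y, y1, y2⟩ := T.exists_both u0 v0
        obtain ⟨c, hc⟩ := T.exists_iso hw y hu y1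
        refine (h1 u _ hu hc fun h2 => y1 ?_).trans (h1 _ v hc hv fun h2 => y2 ?_)
        · rwa [T.add_left, T.smul_left, hu, mul_zero, add_zero, T.perp_iff] at h2
        · rwa [T.add_right, T.smul_right, h, mul_zero, add_zero] at h2
      · exact h1 u v hu hv h
    · obtain ⟨k, rfl⟩ := isConj_iff.1 hg
      exact ⟨_, T.act_ne k u0, by rw [T.isom, hu], T.t_conj k hu⟩

theorem iso_quot {G : Type*} [Group G] [Finite G] {D : Set G} (Φ : Fis D) (hZ : center G = ⊥)
    (hgen : closure T.D = ⊤) (φ : G → ι → F)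
    (h1 : ∀ a ∈ D, ∀ b ∈ D, Commute a b ↔ T.h (φ a) (φ b) = 0)
    (h2 : ∀ u, u ≠ 0 → T.h u u = 0 → ∃ d ∈ D, ∃ c : F, u = c • φ d)
    (h3 : ∀ a ∈ D, ∀ b ∈ D, T.t (φ a) * T.t (φ b) * (T.t (φ a))⁻¹ = T.t (φ (a * b * a⁻¹))) :
    Nonempty (G ≃* K ⧸ center K) := by
  have hi : ∀ a ∈ D, T.h (φ a) (φ a) = 0 := fun a ha => (h1 a ha a ha).1 (Commute.refl a)
  have h0 : ∀ a ∈ D, φ a ≠ 0 := fun a ha h => by
    obtain ⟨b, hb, h4⟩ := Φ.exn' ha
    exact h4 ((h1 a ha b hb).2 (by rw [h, T.zero_left]))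
  have h4 : Set.range (fun d : D => T.t (φ d)) = T.D := Set.ext fun g => ⟨by
    rintro ⟨d, rfl⟩; exact ⟨_, h0 _ d.2, hi _ d.2, rfl⟩, by
    rintro ⟨u, u0, hu, rfl⟩
    obtain ⟨d, hd, c, rfl⟩ := h2 u u0 hu
    exact ⟨⟨d, hd⟩, (T.t_smul (left_ne_zero_of_smul u0) (hi d hd)).symm⟩⟩
  have h5 : Function.Injective fun d : D => T.t (φ d) := fun a b hab => by
    obtain ⟨c, -, hc⟩ := T.t_inj (hi _ a.2) (hi _ b.2) (h0 _ a.2) hab
    by_contra hne
    obtain ⟨x, hx, x1, x2⟩ := Φ.V_triv b.2 a.2 fun h => hne (Subtype.ext h)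
    exact x2 ((h1 _ a.2 x hx).2 (by rw [hc, T.smul_left, (h1 _ b.2 x hx).1 x1, mul_zero]))
  have h6 : ∀ g : G, (∀ d ∈ D, g * d * g⁻¹ = d) → g = 1 := fun g h => by
    rw [← mem_bot, ← hZ, mem_center_iff]
    intro k
    exact mem_centralizer_singleton_iff.1 (((closure_le (centralizer {g})).2 fun u hu =>
      mem_centralizer_singleton_iff.2 (commute_of_conj_eq (h u hu)).symm) (Φ.gen ▸ mem_top k))
  obtain ⟨f, hf⟩ := exists_hom_of_table (fun d : D => T.t (φ d)) (fun d : D => (d : G))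
    (h4 ▸ hgen) (fun d : D => T.t (φ d)) (fun d : D => (d : G)) h5
    (fun g _ h => h6 g fun d hd => h ⟨d, hd⟩) (fun a b => ⟨a * b * (a : G)⁻¹, Φ.conj _ _ b.2⟩)
    (fun a b => h3 a a.2 b b.2) fun _ _ => rfl
  have h7 : Function.Surjective f := by
    rw [← MonoidHom.range_eq_top, eq_top_iff, ← Φ.gen, closure_le]
    exact fun d hd => ⟨_, hf ⟨d, hd⟩⟩
  have h8 : f.ker = center K := by
    ext g
    rw [MonoidHom.mem_ker, mem_center_iff]
    refine ⟨fun h k => mem_centralizer_singleton_iff.1 (((closure_le (centralizer {g})).2 ?_)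
      (hgen ▸ mem_top k)), fun h => h6 _ fun d hd => ?_⟩
    · rw [← h4]
      rintro _ ⟨d, rfl⟩
      obtain ⟨e, he⟩ : g * T.t (φ d) * g⁻¹ ∈ Set.range fun d : D => T.t (φ d) :=
        h4 ▸ ⟨_, T.act_ne g (h0 _ d.2), by rw [T.isom, hi _ d.2], T.t_conj g (hi _ d.2)⟩
      have h9 := congrArg f he
      rw [map_mul, map_mul, map_inv, h, hf, hf, one_mul, inv_one, mul_one] at h9
      rw [Subtype.ext h9] at he
      exact mem_centralizer_singleton_iff.2 (commute_of_conj_eq he.symm).symm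
    · have := congrArg f (h (T.t (φ d)))
      rw [map_mul, map_mul, hf ⟨d, hd⟩] at this
      rw [← this, mul_inv_cancel_right]
  exact ⟨((QuotientGroup.quotientMulEquivOfEq h8.symm).trans
    (QuotientGroup.quotientKerEquivOfSurjective f h7)).symm⟩

end TvG

end CfsgH4
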